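import Mathlib

/-!
# Tools for the Schur multiplier of the Suzuki groups

* scale-invariant biadditive pairings on a finite field vanish;
* the norm homomorphism of an abelian subgroup under a finite family of normalising elements.
-/

set_option autoImplicit false

namespace Cfsg.Agent.Lib.Helper59

open scoped commutatorElement

section Pairing

variable {F : Type*} [Field F] {A : Type*} [Group A]

/-- A biadditive pairing invariant under `(lam, rho)` and `(lam + 1, sig)` vanishes as soon as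
`rho⁻¹ sig + sig - 1 ≠ 0`. -/
theorem pairing_eq_one_of_two_inv (β : F → F → A)
    (h1 : ∀ u u' v, β (u + u') v = β u v * β u' v)
    (h2 : ∀ u v v', β u (v + v') = β u v * β u v')
    (lam rho sig : F) (hrho : rho ≠ 0)
    (hi1 : ∀ u v, β (lam * u) (rho * v) = β u v)
    (hi2 : ∀ u v, β ((lam + 1) * u) (sig * v) = β u v)
    (hc : rho⁻¹ * sig + sig - 1 ≠ 0) (u v : F) : β u v = 1 := by
  have key : ∀ u v, β u ((rho⁻¹ * sig + sig - 1) * v) = 1 := by
    intro u v
    have e1 := hi2 u v
    rw [add_mul, one_mul, h1] at e1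
    have e2 : β (lam * u) (sig * v) = β u (rho⁻¹ * sig * v) := by
      have := hi1 u (rho⁻¹ * sig * v)
      rw [← mul_assoc, ← mul_assoc, mul_inv_cancel₀ hrho, one_mul] at this
      exact this
    rw [e2, ← h2] at e1
    have e3 : rho⁻¹ * sig * v + sig * v = (rho⁻¹ * sig + sig - 1) * v + v := by ring
    rw [e3, h2] at e1
    exact mul_eq_right.mp e1
  have := key u ((rho⁻¹ * sig + sig - 1)⁻¹ * v)
  rwa [← mul_assoc, mul_inv_cancel₀ hc, one_mul] at this

/-- A nonzero polynomial of degree less than the size of the field has a non-root. -/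
theorem exists_eval_ne_zero [Fintype F] (p : Polynomial F) (hp : p ≠ 0)
    (hdeg : p.natDegree < Fintype.card F) : ∃ κ : F, p.eval κ ≠ 0 := by
  by_contra hcon
  have hcon' : ∀ κ : F, p.eval κ = 0 := fun κ => by
    by_contra hk
    exact hcon ⟨κ, hk⟩
  exact hp (Polynomial.eq_zero_of_natDegree_lt_card_of_eval_eq_zero p
    (f := (id : F → F)) Function.injective_id hcon' hdeg)

/-- A biadditive pairing invariant under all scalings `(κ, κ)` vanishes (more than `4` elements). -/
theorem pairing_eq_one_of_scale_inv [Fintype F] (hF : 4 < Fintype.card F) (β : F → F → A)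
    (h1 : ∀ u u' v, β (u + u') v = β u v * β u' v)
    (h2 : ∀ u v v', β u (v + v') = β u v * β u v')
    (hinv : ∀ κ : F, κ ≠ 0 → ∀ u v, β (κ * u) (κ * v) = β u v) (u v : F) : β u v = 1 := by
  obtain ⟨κ, hκ⟩ := exists_eval_ne_zero
    (Polynomial.X * (Polynomial.X + 1) * (Polynomial.X ^ 2 + Polynomial.X + 1) : Polynomial F)
    (by
      have hX1 : (Polynomial.X + 1 : Polynomial F) ≠ 0 := fun h => by
        have := congrArg (Polynomial.eval 0) h
        simp at this
      have hX2 : (Polynomial.X ^ 2 + Polynomial.X + 1 : Polynomial F) ≠ 0 := fun h => by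
        have := congrArg (Polynomial.eval 0) h
        simp at this
      exact mul_ne_zero (mul_ne_zero Polynomial.X_ne_zero hX1) hX2)
    (by
      refine lt_of_le_of_lt ?_ hF
      compute_degree)
  simp only [Polynomial.eval_mul, Polynomial.eval_add, Polynomial.eval_X, Polynomial.eval_pow,
    Polynomial.eval_one] at hκ
  have hκ0 : κ ≠ 0 := by
    rintro rfl
    simp at hκ
  have hκ1 : κ + 1 ≠ 0 := by
    intro h
    rw [h] at hκ
    simp at hκ
  have hκ2 : κ ^ 2 + κ + 1 ≠ 0 := by
    intro h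
    rw [h] at hκ
    simp at hκ
  refine pairing_eq_one_of_two_inv β h1 h2 κ κ (κ + 1) hκ0 (hinv κ hκ0) (hinv (κ + 1) hκ1) ?_ u v
  intro h
  apply hκ2
  have : κ ^ 2 + κ + 1 = κ * (κ⁻¹ * (κ + 1) + (κ + 1) - 1) := by
    field_simp
    ring
  rw [this, h, mul_zero]

/-- A biadditive pairing invariant under the twisted scalings `(κ, κ^(s+1))` vanishes, for a field
with more than `2 s + 4` elements. -/
theorem pairing_eq_one_of_twisted_inv [Fintype F] {s : ℕ} (hF : 2 * s + 4 < Fintype.card F)
    (β : F → F → A)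
    (h1 : ∀ u u' v, β (u + u') v = β u v * β u' v)
    (h2 : ∀ u v v', β u (v + v') = β u v * β u v')
    (hinv : ∀ κ : F, κ ≠ 0 → ∀ u v, β (κ * u) (κ ^ (s + 1) * v) = β u v) (u v : F) :
    β u v = 1 := by
  obtain ⟨κ, hκ⟩ := exists_eval_ne_zero
    (Polynomial.X * (Polynomial.X + 1) *
      ((Polynomial.X + 1) ^ (s + 1) * (Polynomial.X ^ (s + 1) + 1) - Polynomial.X ^ (s + 1)) :
      Polynomial F)
    (by
      have hX1 : (Polynomial.X + 1 : Polynomial F) ≠ 0 := fun h => by
        have := congrArg (Polynomial.eval 0) h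
        simp at this
      have hX2 : ((Polynomial.X + 1) ^ (s + 1) * (Polynomial.X ^ (s + 1) + 1)
          - Polynomial.X ^ (s + 1) : Polynomial F) ≠ 0 := fun h => by
        have := congrArg (Polynomial.eval 0) h
        simp at this
      exact mul_ne_zero (mul_ne_zero Polynomial.X_ne_zero hX1) hX2)
    (by
      refine lt_of_le_of_lt ?_ hF
      compute_degree
      all_goals omega)
  simp only [Polynomial.eval_mul, Polynomial.eval_add, Polynomial.eval_X, Polynomial.eval_pow,
    Polynomial.eval_one, Polynomial.eval_sub] at hκ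
  have hκ0 : κ ≠ 0 := by
    rintro rfl
    simp at hκ
  have hκ1 : κ + 1 ≠ 0 := by
    intro h
    rw [h] at hκ
    simp at hκ
  have hκ2 : (κ + 1) ^ (s + 1) * (κ ^ (s + 1) + 1) - κ ^ (s + 1) ≠ 0 := by
    intro h
    rw [h] at hκ
    simp at hκ
  have hp : κ ^ (s + 1) ≠ 0 := pow_ne_zero _ hκ0
  refine pairing_eq_one_of_two_inv β h1 h2 κ (κ ^ (s + 1)) ((κ + 1) ^ (s + 1)) hp
    (hinv κ hκ0) (hinv (κ + 1) hκ1) ?_ u v
  intro h
  apply hκ2
  have : (κ + 1) ^ (s + 1) * (κ ^ (s + 1) + 1) - κ ^ (s + 1)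
      = κ ^ (s + 1) * ((κ ^ (s + 1))⁻¹ * (κ + 1) ^ (s + 1) + (κ + 1) ^ (s + 1) - 1) := by
    field_simp
    ring
  rw [this, h, mul_zero]

end Pairing

section Norm

/-- The norm homomorphism of an abelian subgroup `A` with respect to a finite family of elements
normalising it. -/
theorem exists_norm_hom {Y ι : Type*} [Group Y] [Fintype ι] (A : Subgroup Y)
    (hA : ∀ x ∈ A, ∀ y ∈ A, x * y = y * x) (g : ι → Y)
    (hg : ∀ i, ∀ x ∈ A, g i * x * (g i)⁻¹ ∈ A) :
    ∃ P : ↥A →* ↥A,
      (∀ x : ↥A, (x : Y) ∈ Subgroup.center Y → ((P x : ↥A) : Y) = (x : Y) ^ Fintype.card ι) ∧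
      (∀ (σ : ι ≃ ι) (k : Y) (hk : ∀ x ∈ A, k * x * k⁻¹ ∈ A),
        (∀ i, ∀ x ∈ A, g (σ i) * x * (g (σ i))⁻¹ = g i * (k * x * k⁻¹) * (g i)⁻¹) →
        ∀ x : ↥A, P ⟨k * x * k⁻¹, hk x x.2⟩ = P x) := by
  classical
  let _ : CommGroup ↥A :=
    { (inferInstance : Group ↥A) with mul_comm := fun x y => Subtype.ext (hA x x.2 y y.2) }
  let φ : ι → (↥A →* ↥A) := fun i =>
    { toFun := fun x => ⟨g i * x * (g i)⁻¹, hg i x x.2⟩
      map_one' := by
        apply Subtype.ext
        simp
      map_mul' := fun x y => by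
        apply Subtype.ext
        simp only [Subgroup.coe_mul]
        group }
  refine ⟨∏ i, φ i, ?_, ?_⟩
  · intro x hx
    rw [MonoidHom.finsetProd_apply]
    have hφ : ∀ i, φ i x = x := fun i => by
      apply Subtype.ext
      show g i * (x : Y) * (g i)⁻¹ = x
      rw [Subgroup.mem_center_iff] at hx
      rw [hx (g i), mul_inv_cancel_right]
    simp only [hφ, Finset.prod_const, Finset.card_univ]
    rfl
  · intro σ k hk hσ x
    rw [MonoidHom.finsetProd_apply, MonoidHom.finsetProd_apply,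
      ← Equiv.prod_comp σ (fun i => φ i x)]
    apply Finset.prod_congr rfl
    intro i _
    apply Subtype.ext
    show g i * (k * (x : Y) * k⁻¹) * (g i)⁻¹ = g (σ i) * (x : Y) * (g (σ i))⁻¹
    exact (hσ i x x.2).symm

end Norm

end Cfsg.Agent.Lib.Helper59
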