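import Mathlib
import Cfsg.Agent.Lib.Helper59.SzMultA
import Cfsg.Agent.Lib.Helper35.Schur
import Cfsg.Agent.Lib.Helper37.SzField

/-!
# Commutators in a central extension of a Suzuki 2-group

For a central extension `τ : Y → G` and a subgroup `S = {T a b}` of `G` with the multiplication
rule of a Suzuki 2-group, normalised by a torus `Hh μ`, an element of `[τ⁻¹ S, τ⁻¹ S] ∩ ker τ`
has order dividing `q - 1`.
-/

set_option autoImplicit false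

namespace Cfsg.Agent.Lib.Helper59

open scoped commutatorElement
open Cfsg.Agent.Lib.Helper37 Cfsg.Agent.Lib.Helper35

section CentralExt

variable {Y G : Type*} [Group Y] [Group G] (τ : Y →* G)

theorem comm_eq_of_map_eq (hc : τ.ker ≤ Subgroup.center Y) {x x' y y' : Y}
    (hx : τ x = τ x') (hy : τ y = τ y') : ⁅x, y⁆ = ⁅x', y'⁆ := by
  have hzx : x'⁻¹ * x ∈ Subgroup.center Y :=
    hc (by rw [MonoidHom.mem_ker, map_mul, map_inv, hx, inv_mul_cancel])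
  have hzy : y'⁻¹ * y ∈ Subgroup.center Y :=
    hc (by rw [MonoidHom.mem_ker, map_mul, map_inv, hy, inv_mul_cancel])
  have e1 : x = x' * (x'⁻¹ * x) := by group
  have e2 : y = y' * (y'⁻¹ * y) := by group
  rw [e1, e2, comm_mul_central_left hzx, comm_mul_central_right hzy]

theorem conj_eq_of_map_eq (hc : τ.ker ≤ Subgroup.center Y) {k k' : Y} (hk : τ k = τ k') (x : Y) :
    k * x * k⁻¹ = k' * x * k'⁻¹ := by
  have hz : k'⁻¹ * k ∈ Subgroup.center Y :=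
    hc (by rw [MonoidHom.mem_ker, map_mul, map_inv, hk, inv_mul_cancel])
  have h := Subgroup.mem_center_iff.mp hz x
  have e1 : k = k' * (k'⁻¹ * k) := by group
  rw [e1, mul_inv_rev, mul_assoc k', ← h]
  group

theorem comm_mem_center_of_map_comm (hc : τ.ker ≤ Subgroup.center Y) {x y : Y}
    (h : τ x * τ y = τ y * τ x) : ⁅x, y⁆ ∈ Subgroup.center Y := by
  apply hc
  rw [MonoidHom.mem_ker, map_commutatorElement, commutatorElement_eq_one_iff_mul_comm]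
  exact h

omit [Group G] in
theorem comm_mul_left_of_comm {x x' y : Y} (h : x * ⁅x', y⁆ = ⁅x', y⁆ * x) :
    ⁅x * x', y⁆ = ⁅x', y⁆ * ⁅x, y⁆ := by
  have e : ⁅x * x', y⁆ = x * ⁅x', y⁆ * x⁻¹ * ⁅x, y⁆ := by
    simp only [commutatorElement_def]; group
  rw [e, h, mul_inv_cancel_right]

omit [Group G] in
theorem comm_mul_right_of_comm {x y y' : Y} (h : y * ⁅x, y'⁆ = ⁅x, y'⁆ * y) :
    ⁅x, y * y'⁆ = ⁅x, y⁆ * ⁅x, y'⁆ := by
  have e : ⁅x, y * y'⁆ = ⁅x, y⁆ * (y * ⁅x, y'⁆ * y⁻¹) := by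
    simp only [commutatorElement_def]; group
  rw [e, h, mul_inv_cancel_right]

omit [Group G] in
theorem comm_mul_cancel_left {x u y : Y} (h : u * y = y * u) : ⁅x * u, y⁆ = ⁅x, y⁆ := by
  have h1 : ⁅u, y⁆ = 1 := commutatorElement_eq_one_iff_mul_comm.mpr h
  rw [comm_mul_left_of_comm (by rw [h1, mul_one, one_mul]), h1, one_mul]

omit [Group G] in
theorem comm_mul_cancel_right {x y v : Y} (h : x * v = v * x) : ⁅x, y * v⁆ = ⁅x, y⁆ := by
  have h1 : ⁅x, v⁆ = 1 := commutatorElement_eq_one_iff_mul_comm.mpr h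
  rw [comm_mul_right_of_comm (by rw [h1, mul_one, one_mul]), h1, mul_one]

omit [Group G] in
theorem conj_comm (g x y : Y) : g * ⁅x, y⁆ * g⁻¹ = ⁅g * x * g⁻¹, g * y * g⁻¹⁆ := by
  simp only [commutatorElement_def]; group

end CentralExt

section SuzukiSylow

variable {F : Type*} [Field F] [Fintype F] {s : ℕ}

omit [Fintype F] in
theorem SzData_exists_unit_sq (hs : SzData F s) (κ : F) (hκ : κ ≠ 0) :
    ∃ μ : Fˣ, (μ : F) ^ 2 = κ := by
  obtain ⟨y, hy⟩ := hs.exists_sqrt κ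
  have hy0 : y ≠ 0 := by
    rintro rfl
    apply hκ
    rw [← hy]
    simp
  exact ⟨Units.mk0 y hy0, by rw [Units.val_mk0, hy]⟩

omit [Fintype F] in
theorem SzData_exists_unit_twist (hs : SzData F s) (κ : F) (hκ : κ ≠ 0) :
    ∃ μ : Fˣ, ((μ : F) ^ 2) ^ (s + 1) = κ := by
  have hs0 : s ≠ 0 := hs.spos
  have hl : κ ^ (s - 1) ≠ 0 := pow_ne_zero _ hκ
  obtain ⟨y, hy⟩ := hs.exists_sqrt (κ ^ (s - 1))
  have hy0 : y ≠ 0 := by
    rintro rfl
    apply hl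
    rw [← hy]
    simp
  refine ⟨Units.mk0 y hy0, ?_⟩
  rw [Units.val_mk0, hy, ← pow_mul]
  have e : (s - 1) * (s + 1) + 1 = s * s := by
    obtain ⟨k, rfl⟩ : ∃ k, s = k + 1 := ⟨s - 1, by omega⟩
    simp
    ring
  have h2 : κ ^ ((s - 1) * (s + 1)) * κ = κ * κ := by
    rw [← pow_succ, e, pow_mul, hs.sq, sq]
  exact mul_right_cancel₀ hκ h2

theorem sz_comm_lift (hs : SzData F s) (hF : 2 * s + 4 < Fintype.card F)
    {G Y : Type*} [Group G] [Group Y] (T : F → F → G) (Hh : Fˣ → G)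
    (hT : ∀ a b c d, T a b * T c d = T (a + c) (b + d + a ^ s * c))
    (hH : ∀ (μ : Fˣ) a b,
      Hh μ * T a b * (Hh μ)⁻¹ = T ((μ : F) ^ 2 * a) (((μ : F) ^ 2) ^ (s + 1) * b))
    (hHmul : ∀ μ ν, Hh μ * Hh ν = Hh (μ * ν))
    (τ : Y →* G) (hτ : Function.Surjective τ) (hc : τ.ker ≤ Subgroup.center Y)
    (S : Subgroup G) (hS : ∀ g, g ∈ S ↔ ∃ a b, g = T a b)
    (w : Y) (hw : w ∈ ⁅S.comap τ, S.comap τ⁆) (hwk : τ w = 1) :
    w ^ (Fintype.card F - 1) = 1 := by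
  classical
  have hs0 : s ≠ 0 := hs.spos
  have h0s : (0 : F) ^ s = 0 := zero_pow hs0
  have hF4 : 4 < Fintype.card F := by omega
  -- lifts
  choose t ht using fun a b => hτ (T a b)
  choose gH hgH using fun μ => hτ (Hh μ)
  -- basic facts on `T`
  have hT00 : T 0 0 = 1 := by
    have h := hT 0 0 0 0
    simp only [add_zero, mul_zero] at h
    exact mul_left_cancel (a := T 0 0) (by rw [h, mul_one])
  have hT0b : ∀ b c d, T 0 b * T c d = T c (b + d) := fun b c d => by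
    rw [hT, h0s, zero_mul, add_zero, zero_add]
  have hTb0 : ∀ b c d, T c d * T 0 b = T c (d + b) := fun b c d => by
    rw [hT, mul_zero, add_zero, add_zero]
  have hTcomm0 : ∀ b c d, T 0 b * T c d = T c d * T 0 b := fun b c d => by
    rw [hT0b, hTb0, add_comm]
  have hTsplit : ∀ a b, T a b = T a 0 * T 0 b := fun a b => by rw [hTb0, zero_add]
  have hTcomm : ∀ a b c d, T a b * T c d = T 0 (a ^ s * c + c ^ s * a) * (T c d * T a b) := by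
    intro a b c d
    rw [hT c d a b, hT0b, hT]
    congr 1
    · exact add_comm a c
    · linear_combination (-(c ^ s * a)) * hs.two
  -- conjugation of lifts by lifts of torus elements
  have hconj : ∀ (μ : Fˣ) (x : Y) (a b : F), τ x = T a b →
      τ (gH μ * x * (gH μ)⁻¹) = T ((μ : F) ^ 2 * a) (((μ : F) ^ 2) ^ (s + 1) * b) := by
    intro μ x a b hx
    rw [map_mul, map_mul, map_inv, hgH, hx, hH]
  -- 1. the pairing on `Z₁ × Z₁`
  have hcen0 : ∀ b e, ⁅t 0 b, t 0 e⁆ ∈ Subgroup.center Y := fun b e =>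
    comm_mem_center_of_map_comm τ hc (by rw [ht, ht]; exact hTcomm0 b 0 e)
  have hβ₀ : ∀ b e, (⟨⁅t 0 b, t 0 e⁆, hcen0 b e⟩ : Subgroup.center Y) = 1 := by
    apply pairing_eq_one_of_scale_inv hF4
      (fun b e => (⟨⁅t 0 b, t 0 e⁆, hcen0 b e⟩ : Subgroup.center Y))
    · intro u u' v
      apply Subtype.ext
      show ⁅t 0 (u + u'), t 0 v⁆ = ⁅t 0 u, t 0 v⁆ * ⁅t 0 u', t 0 v⁆
      have e1 : ⁅t 0 (u + u'), t 0 v⁆ = ⁅t 0 u * t 0 u', t 0 v⁆ :=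
        comm_eq_of_map_eq τ hc (by rw [map_mul, ht, ht, ht, hT0b]) rfl
      rw [e1, comm_mul_left_of_comm (Subgroup.mem_center_iff.mp (hcen0 u' v) _)]
      exact (Subgroup.mem_center_iff.mp (hcen0 u' v) _).symm
    · intro u v v'
      apply Subtype.ext
      show ⁅t 0 u, t 0 (v + v')⁆ = ⁅t 0 u, t 0 v⁆ * ⁅t 0 u, t 0 v'⁆
      have e1 : ⁅t 0 u, t 0 (v + v')⁆ = ⁅t 0 u, t 0 v * t 0 v'⁆ :=
        comm_eq_of_map_eq τ hc rfl (by rw [map_mul, ht, ht, ht, hT0b])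
      rw [e1, comm_mul_right_of_comm (Subgroup.mem_center_iff.mp (hcen0 u v') _)]
    · intro κ hκ u v
      apply Subtype.ext
      show ⁅t 0 (κ * u), t 0 (κ * v)⁆ = ⁅t 0 u, t 0 v⁆
      obtain ⟨μ, hμ⟩ := SzData_exists_unit_twist hs κ hκ
      have e1 : gH μ * ⁅t 0 u, t 0 v⁆ * (gH μ)⁻¹ = ⁅t 0 u, t 0 v⁆ := by
        rw [Subgroup.mem_center_iff.mp (hcen0 u v) (gH μ), mul_inv_cancel_right]
      rw [← e1, conj_comm]
      apply comm_eq_of_map_eq τ hc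
      · rw [ht, hconj μ _ 0 u (ht 0 u), mul_zero, hμ]
      · rw [ht, hconj μ _ 0 v (ht 0 v), mul_zero, hμ]
  have hZ0 : ∀ x y : Y, (∃ b, τ x = T 0 b) → (∃ e, τ y = T 0 e) → x * y = y * x := by
    rintro x y ⟨b, hb⟩ ⟨e, he⟩
    have h1 := comm_eq_of_map_eq τ hc (x := x) (x' := t 0 b) (y := y) (y' := t 0 e)
      (by rw [hb, ht]) (by rw [he, ht])
    have h2 : ⁅t 0 b, t 0 e⁆ = 1 := congrArg Subtype.val (hβ₀ b e)
    rw [h2] at h1
    exact commutatorElement_eq_one_iff_mul_comm.mp h1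
  -- 2. the pairing on `S/Z₁ × Z₁`
  have hcen1 : ∀ (x : Y) (a b e : F), τ x = T a b → ⁅x, t 0 e⁆ ∈ Subgroup.center Y :=
    fun x a b e hx =>
      comm_mem_center_of_map_comm τ hc (by rw [ht, hx]; exact (hTcomm0 e a b).symm)
  have hβ₁ : ∀ a e, (⟨⁅t a 0, t 0 e⁆, hcen1 _ a 0 e (ht a 0)⟩ : Subgroup.center Y) = 1 := by
    apply pairing_eq_one_of_twisted_inv hF
      (fun a e => (⟨⁅t a 0, t 0 e⁆, hcen1 _ a 0 e (ht a 0)⟩ : Subgroup.center Y))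
    · intro u u' v
      apply Subtype.ext
      show ⁅t (u + u') 0, t 0 v⁆ = ⁅t u 0, t 0 v⁆ * ⁅t u' 0, t 0 v⁆
      have e1 : ⁅t (u + u') 0, t 0 v⁆ = ⁅t u 0 * (t u' 0 * t 0 (u ^ s * u')), t 0 v⁆ := by
        apply comm_eq_of_map_eq τ hc _ rfl
        rw [map_mul, map_mul, ht, ht, ht, ht, hTb0, hT]
        congr 1
        linear_combination (-(u ^ s * u')) * hs.two
      have hcx : ⁅t u' 0 * t 0 (u ^ s * u'), t 0 v⁆ ∈ Subgroup.center Y :=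
        hcen1 _ u' (0 + u ^ s * u') v (by rw [map_mul, ht, ht, hTb0])
      have e2 : ⁅t u' 0 * t 0 (u ^ s * u'), t 0 v⁆ = ⁅t u' 0, t 0 v⁆ :=
        comm_mul_cancel_left (hZ0 _ _ ⟨_, ht 0 _⟩ ⟨_, ht 0 _⟩)
      rw [e1, comm_mul_left_of_comm (Subgroup.mem_center_iff.mp hcx _), e2]
      exact (Subgroup.mem_center_iff.mp (hcen1 _ u' 0 v (ht u' 0)) _).symm
    · intro u v v'
      apply Subtype.ext
      show ⁅t u 0, t 0 (v + v')⁆ = ⁅t u 0, t 0 v⁆ * ⁅t u 0, t 0 v'⁆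
      have e1 : ⁅t u 0, t 0 (v + v')⁆ = ⁅t u 0, t 0 v * t 0 v'⁆ :=
        comm_eq_of_map_eq τ hc rfl (by rw [map_mul, ht, ht, ht, hT0b])
      rw [e1, comm_mul_right_of_comm
        (Subgroup.mem_center_iff.mp (hcen1 _ u 0 v' (ht u 0)) _)]
    · intro κ hκ u v
      apply Subtype.ext
      show ⁅t (κ * u) 0, t 0 (κ ^ (s + 1) * v)⁆ = ⁅t u 0, t 0 v⁆
      obtain ⟨μ, hμ⟩ := SzData_exists_unit_sq hs κ hκ
      have e1 : gH μ * ⁅t u 0, t 0 v⁆ * (gH μ)⁻¹ = ⁅t u 0, t 0 v⁆ := by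
        rw [Subgroup.mem_center_iff.mp (hcen1 _ u 0 v (ht u 0)) (gH μ), mul_inv_cancel_right]
      rw [← e1, conj_comm]
      apply comm_eq_of_map_eq τ hc
      · rw [ht, hconj μ _ u 0 (ht u 0), mul_zero, hμ]
      · rw [ht, hconj μ _ 0 v (ht 0 v), mul_zero, hμ]
  have hZ1 : ∀ x y : Y, (∃ a b, τ x = T a b) → (∃ e, τ y = T 0 e) → x * y = y * x := by
    rintro x y ⟨a, b, hab⟩ ⟨e, he⟩
    have h1 := comm_eq_of_map_eq τ hc (x := x) (x' := t a 0 * t 0 b) (y := y) (y' := t 0 e)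
      (by rw [hab, map_mul, ht, ht, ← hTsplit]) (by rw [he, ht])
    have h2 : ⁅t a 0 * t 0 b, t 0 e⁆ = ⁅t a 0, t 0 e⁆ :=
      comm_mul_cancel_left (hZ0 _ _ ⟨_, ht 0 _⟩ ⟨_, ht 0 _⟩)
    have h3 : ⁅t a 0, t 0 e⁆ = 1 := congrArg Subtype.val (hβ₁ a e)
    rw [h2, h3] at h1
    exact commutatorElement_eq_one_iff_mul_comm.mp h1
  -- 3. the abelian subgroup `Zs` and the norm
  let Zs : Subgroup Y :=
    { carrier := {y | ∃ e, τ y = T 0 e}
      one_mem' := ⟨0, by rw [map_one, hT00]⟩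
      mul_mem' := by
        rintro x y ⟨e, he⟩ ⟨e', he'⟩
        exact ⟨e + e', by rw [map_mul, he, he', hT0b]⟩
      inv_mem' := by
        rintro x ⟨e, he⟩
        refine ⟨e, ?_⟩
        rw [map_inv, he]
        exact inv_eq_of_mul_eq_one_right (by rw [hT0b, hs.add_self, hT00]) }
  have hZsA : ∀ x ∈ Zs, ∀ y ∈ Zs, x * y = y * x := fun x hx y hy => hZ0 x y hx hy
  have hgZ : ∀ μ : Fˣ, ∀ x ∈ Zs, gH μ * x * (gH μ)⁻¹ ∈ Zs := by
    rintro μ x ⟨e, he⟩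
    exact ⟨((μ : F) ^ 2) ^ (s + 1) * e, by rw [hconj μ x 0 e he, mul_zero]⟩
  obtain ⟨P, hP1, hP2⟩ := exists_norm_hom Zs hZsA gH hgZ
  have hcomm_mem : ∀ x y : Y, (∃ a b, τ x = T a b) → (∃ a b, τ y = T a b) → ⁅x, y⁆ ∈ Zs := by
    rintro x y ⟨a, b, hx⟩ ⟨c, d, hy⟩
    refine ⟨a ^ s * c + c ^ s * a, ?_⟩
    rw [map_commutatorElement, hx, hy, commutatorElement_def, hTcomm a b c d]
    group
  have hZ2 : ∀ (x y : Y) (a b a' b' : F), τ x = T a b → τ y = T a' b' →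
      ⁅x, y⁆ = ⁅t a 0, t a' 0⁆ := by
    intro x y a b a' b' hx hy
    have e1 : ⁅x, y⁆ = ⁅t a 0 * t 0 b, t a' 0 * t 0 b'⁆ :=
      comm_eq_of_map_eq τ hc (by rw [hx, map_mul, ht, ht, ← hTsplit])
        (by rw [hy, map_mul, ht, ht, ← hTsplit])
    have e2 : ⁅t a 0 * t 0 b, t a' 0 * t 0 b'⁆ = ⁅t a 0, t a' 0 * t 0 b'⁆ :=
      comm_mul_cancel_left
        (hZ1 _ _ ⟨a', 0 + b', by rw [map_mul, ht, ht, hTb0]⟩ ⟨b, ht 0 b⟩).symm
    have e3 : ⁅t a 0, t a' 0 * t 0 b'⁆ = ⁅t a 0, t a' 0⁆ :=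
      comm_mul_cancel_right (hZ1 _ _ ⟨a, 0, ht a 0⟩ ⟨b', ht 0 b'⟩)
    rw [e1, e2, e3]
  let c : F → F → ↥Zs := fun a a' =>
    ⟨⁅t a 0, t a' 0⁆, hcomm_mem _ _ ⟨a, 0, ht a 0⟩ ⟨a', 0, ht a' 0⟩⟩
  have hc1 : ∀ u u' v, c (u + u') v = c u v * c u' v := by
    intro u u' v
    apply Subtype.ext
    show ⁅t (u + u') 0, t v 0⁆ = ⁅t u 0, t v 0⁆ * ⁅t u' 0, t v 0⁆
    have e1 := hZ2 (t u 0 * t u' 0) (t v 0) (u + u') (0 + 0 + u ^ s * u') v 0
      (by rw [map_mul, ht, ht, hT]) (ht v 0)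
    rw [← e1, comm_mul_left_of_comm (hZ1 _ _ ⟨u, 0, ht u 0⟩ (c u' v).2)]
    exact hZsA _ (c u' v).2 _ (c u v).2
  have hc2 : ∀ u v v', c u (v + v') = c u v * c u v' := by
    intro u v v'
    apply Subtype.ext
    show ⁅t u 0, t (v + v') 0⁆ = ⁅t u 0, t v 0⁆ * ⁅t u 0, t v' 0⁆
    have e1 := hZ2 (t u 0) (t v 0 * t v' 0) u 0 (v + v') (0 + 0 + v ^ s * v')
      (ht u 0) (by rw [map_mul, ht, ht, hT])
    rw [← e1, comm_mul_right_of_comm (hZ1 _ _ ⟨v, 0, ht v 0⟩ (c u v').2)]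
  have hceq : ∀ (μ : Fˣ) (u v : F),
      gH μ * (c u v : Y) * (gH μ)⁻¹ = (c ((μ : F) ^ 2 * u) ((μ : F) ^ 2 * v) : Y) := by
    intro μ u v
    show gH μ * ⁅t u 0, t v 0⁆ * (gH μ)⁻¹ = ⁅t ((μ : F) ^ 2 * u) 0, t ((μ : F) ^ 2 * v) 0⁆
    rw [conj_comm]
    exact hZ2 _ _ _ _ _ _ (hconj μ _ u 0 (ht u 0)) (hconj μ _ v 0 (ht v 0))
  have hc' : ∀ u v, P (c u v) = 1 := by
    apply pairing_eq_one_of_scale_inv hF4 (fun u v => P (c u v))
    · intro u u' v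
      show P (c (u + u') v) = P (c u v) * P (c u' v)
      rw [hc1, map_mul]
    · intro u v v'
      show P (c u (v + v')) = P (c u v) * P (c u v')
      rw [hc2, map_mul]
    · intro κ hκ u v
      show P (c (κ * u) (κ * v)) = P (c u v)
      obtain ⟨μ, hμ⟩ := SzData_exists_unit_sq hs κ hκ
      have e : c (κ * u) (κ * v) = ⟨gH μ * (c u v : Y) * (gH μ)⁻¹, hgZ μ _ (c u v).2⟩ :=
        Subtype.ext (by rw [← hμ]; exact (hceq μ u v).symm)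
      rw [e]
      refine hP2 (Equiv.mulRight μ) (gH μ) (hgZ μ) (fun ν x _ => ?_) (c u v)
      have hk : τ (gH ((Equiv.mulRight μ) ν)) = τ (gH ν * gH μ) := by
        rw [map_mul, hgH, hgH, hgH, hHmul]
        rfl
      rw [conj_eq_of_map_eq τ hc hk]
      group
  -- 4. conclusion
  have hK : ⁅S.comap τ, S.comap τ⁆ ≤ (P.ker).map Zs.subtype := by
    rw [Subgroup.commutator_le]
    intro x hx y hy
    obtain ⟨a, b, hab⟩ := (hS _).mp (Subgroup.mem_comap.mp hx)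
    obtain ⟨a', b', hab'⟩ := (hS _).mp (Subgroup.mem_comap.mp hy)
    exact ⟨c a a', MonoidHom.mem_ker.mpr (hc' a a'), (hZ2 x y a b a' b' hab hab').symm⟩
  obtain ⟨v, hv, hvw⟩ := hK hw
  have hvw' : (v : Y) = w := hvw
  have hwc : (v : Y) ∈ Subgroup.center Y := by
    rw [hvw']
    exact hc (MonoidHom.mem_ker.mpr hwk)
  have h1 := hP1 v hwc
  rw [MonoidHom.mem_ker.mp hv, Fintype.card_units] at h1
  rw [← hvw', ← h1]
  rfl

end SuzukiSylow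

end Cfsg.Agent.Lib.Helper59
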