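import Mathlib

set_option autoImplicit false

namespace Cfsg.Agent.Lib.Helper59

/-- Trace argument: if `M ⋊ ⟨y⟩` acts on the abelian group `V` with `M ≠ 1` and all `m y`
(of order dividing the prime `r`) acting fixed-point-freely, then `v ^ |M| = 1` for all `v`. -/
theorem frob_trace {K : Type*} [Group K] {V : Type*} [CommGroup V] (φ : K →* MulAut V)
    (M : Subgroup K) [Finite M] (y : K) (r : ℕ) (hr : r.Prime)
    (hM : ∃ m₀ ∈ M, m₀ ≠ 1)
    (hfixM : ∀ m ∈ M, m ≠ 1 → ∀ v : V, φ m v = v → v = 1)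
    (hfixy : ∀ m ∈ M, ∀ v : V, φ (m * y) v = v → v = 1)
    (hyr : ∀ m ∈ M, (m * y) ^ r = 1)
    (hnorm : ∀ m ∈ M, y * m * y⁻¹ ∈ M) :
    ∀ v : V, v ^ Nat.card M = 1 := by
  classical
  have : Fintype M := Fintype.ofFinite M
  have hnormi : ∀ i : ℕ, ∀ m ∈ M, y ^ i * m * (y ^ i)⁻¹ ∈ M := by
    intro i
    induction i with
    | zero => intro m hm; simpa using hm
    | succ i ih =>
      intro m hm
      have h1 : y ^ (i + 1) * m * (y ^ (i + 1))⁻¹ = y ^ i * (y * m * y⁻¹) * (y ^ i)⁻¹ := by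
        rw [pow_succ]; generalize y ^ i = B; group
      rw [h1]
      exact ih _ (hnorm m hm)
  have hd : ∀ i : ℕ, ∀ m ∈ M, (m * y) ^ i * (y ^ i)⁻¹ ∈ M := by
    intro i
    induction i with
    | zero => intro m hm; simp
    | succ i ih =>
      intro m hm
      have h1 : (m * y) ^ (i + 1) * (y ^ (i + 1))⁻¹
          = ((m * y) ^ i * (y ^ i)⁻¹) * (y ^ i * m * (y ^ i)⁻¹) := by
        rw [pow_succ, pow_succ]
        generalize (m * y) ^ i = A
        generalize y ^ i = B
        group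
      rw [h1]
      exact M.mul_mem (ih m hm) (hnormi i m hm)
  have hT : ∀ w : V, ∏ m : M, φ (m : K) w = 1 := by
    intro w
    obtain ⟨m₀, hm₀, hm₀1⟩ := hM
    apply hfixM m₀ hm₀ hm₀1
    rw [map_prod]
    have h1 : ∀ m : M, φ m₀ (φ (m : K) w) = φ ((⟨m₀, hm₀⟩ * m : M) : K) w := by
      intro m
      rw [Subgroup.coe_mul, map_mul]; rfl
    simp_rw [h1]
    exact Fintype.prod_equiv (Equiv.mulLeft (⟨m₀, hm₀⟩ : M)) _ _ (fun m => rfl)
  have hZ : ∀ m ∈ M, ∀ v : V, ∏ i ∈ Finset.range r, φ ((m * y) ^ i) v = 1 := by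
    intro m hm v
    apply hfixy m hm
    rw [map_prod]
    have h0 : ∀ i : ℕ, φ (m * y) (φ ((m * y) ^ i) v) = φ ((m * y) ^ (i + 1)) v := by
      intro i
      rw [pow_succ', map_mul φ (m * y) ((m * y) ^ i)]; rfl
    simp_rw [h0]
    have h1 := Finset.prod_range_succ' (fun i => φ ((m * y) ^ i) v) r
    have h2 := Finset.prod_range_succ (fun i => φ ((m * y) ^ i) v) r
    rw [h2] at h1
    simp only [hyr m hm, pow_zero] at h1
    exact (mul_right_cancel h1).symm
  intro v
  have h3 : ∏ m : M, ∏ i ∈ Finset.range r, φ (((m : K) * y) ^ i) v = 1 :=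
    Finset.prod_eq_one (fun m _ => hZ m m.2 v)
  rw [Finset.prod_comm] at h3
  obtain ⟨r', rfl⟩ : ∃ r', r = r' + 1 := ⟨r - 1, by have := hr.pos; omega⟩
  rw [Finset.prod_range_succ'] at h3
  have h4 : ∀ i ∈ Finset.range r', ∏ m : M, φ (((m : K) * y) ^ (i + 1)) v = 1 := by
    intro i hi
    rw [Finset.mem_range] at hi
    let σ : M → M := fun m => ⟨((m : K) * y) ^ (i + 1) * (y ^ (i + 1))⁻¹, hd (i + 1) m m.2⟩
    have hσ : Function.Injective σ := by
      intro m m' h
      have h' : ((m : K) * y) ^ (i + 1) = ((m' : K) * y) ^ (i + 1) :=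
        mul_right_cancel (congrArg Subtype.val h)
      have hcop : Nat.Coprime (i + 1) (r' + 1) :=
        (Nat.Prime.coprime_iff_not_dvd hr).mpr
          (Nat.not_dvd_of_pos_of_lt (Nat.succ_pos i) (by omega)) |>.symm
      obtain ⟨j, -, hj⟩ := Nat.exists_mul_mod_eq_one_of_coprime hcop hr.one_lt
      have e1 : ∀ z : K, z ^ (r' + 1) = 1 → z = (z ^ (i + 1)) ^ j := by
        intro z hz
        rw [← pow_mul, pow_eq_pow_mod _ hz, hj, pow_one]
      have e2 := e1 _ (hyr m m.2)
      have e3 := e1 _ (hyr m' m'.2)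
      rw [h', ← e3] at e2
      exact Subtype.ext (mul_right_cancel e2)
    have hσb : Function.Bijective σ := ⟨hσ, Finite.injective_iff_surjective.mp hσ⟩
    have h5 : ∀ m : M, φ (((m : K) * y) ^ (i + 1)) v = φ (σ m : K) (φ (y ^ (i + 1)) v) := by
      intro m
      have : ((m : K) * y) ^ (i + 1) = (σ m : K) * y ^ (i + 1) := by
        simp [σ]
      rw [this, map_mul]; rfl
    simp_rw [h5]
    rw [Fintype.prod_bijective σ hσb (fun m => φ (σ m : K) (φ (y ^ (i + 1)) v))
      (fun m => φ (m : K) (φ (y ^ (i + 1)) v)) (fun m => rfl)]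
    exact hT _
  rw [Finset.prod_eq_one h4, one_mul] at h3
  simpa using h3


theorem pow_mul_inv_mem_of_norm {K : Type*} [Group K] (M : Subgroup K) (y : K)
    (hnorm : ∀ m ∈ M, y * m * y⁻¹ ∈ M) : ∀ i : ℕ, ∀ m ∈ M, (m * y) ^ i * (y ^ i)⁻¹ ∈ M := by
  have hnormi : ∀ i : ℕ, ∀ m ∈ M, y ^ i * m * (y ^ i)⁻¹ ∈ M := by
    intro i
    induction i with
    | zero => intro m hm; simpa using hm
    | succ i ih =>
      intro m hm
      have h1 : y ^ (i + 1) * m * (y ^ (i + 1))⁻¹ = y ^ i * (y * m * y⁻¹) * (y ^ i)⁻¹ := by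
        rw [pow_succ]; generalize y ^ i = B; group
      rw [h1]
      exact ih _ (hnorm m hm)
  intro i
  induction i with
  | zero => intro m hm; simp
  | succ i ih =>
    intro m hm
    have h1 : (m * y) ^ (i + 1) * (y ^ (i + 1))⁻¹
        = ((m * y) ^ i * (y ^ i)⁻¹) * (y ^ i * m * (y ^ i)⁻¹) := by
      rw [pow_succ, pow_succ]
      generalize (m * y) ^ i = A
      generalize y ^ i = B
      group
    rw [h1]
    exact M.mul_mem (ih m hm) (hnormi i m hm)

theorem exists_normal_elab_of_solvable {G : Type*} [Group G] [Finite G] [Group.IsSolvable G]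
    [Nontrivial G] :
    ∃ p : ℕ, p.Prime ∧ ∃ N : Subgroup G, N.Normal ∧ N ≠ ⊥ ∧ (∀ a ∈ N, a ^ p = 1) ∧
      (∀ a ∈ N, ∀ b ∈ N, a * b = b * a) := by
  classical
  have hsol : ∃ n : ℕ, derivedSeries G n = ⊥ := (Group.isSolvable_def G).mp inferInstance
  have hn : derivedSeries G (Nat.find hsol) = ⊥ := Nat.find_spec hsol
  have hn0 : Nat.find hsol ≠ 0 := by
    intro h0
    rw [h0, derivedSeries_zero] at hn
    exact top_ne_bot hn
  obtain ⟨k, hk⟩ := Nat.exists_eq_succ_of_ne_zero hn0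
  have hA : derivedSeries G k ≠ ⊥ := Nat.find_min hsol (by omega : k < Nat.find hsol)
  have hAn : (derivedSeries G k).Normal := derivedSeries_normal G k
  have hAc : ∀ a ∈ derivedSeries G k, ∀ b ∈ derivedSeries G k, a * b = b * a := by
    have h1 : ⁅derivedSeries G k, derivedSeries G k⁆ = ⊥ := by
      rw [← derivedSeries_succ, ← Nat.succ_eq_add_one, ← hk]; exact hn
    rw [Subgroup.commutator_eq_bot_iff_le_centralizer] at h1
    intro a ha b hb
    exact ((Subgroup.mem_centralizer_iff.mp (h1 ha)) b hb).symm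
  have hAcard : Nat.card (derivedSeries G k) ≠ 1 := by
    intro h; exact hA (Subgroup.card_eq_one.mp h)
  obtain ⟨p, hp, hpdvd⟩ := Nat.exists_prime_and_dvd hAcard
  have : Fact p.Prime := ⟨hp⟩
  obtain ⟨x, hx⟩ := exists_prime_orderOf_dvd_card' (G := derivedSeries G k) p hpdvd
  let N : Subgroup G :=
    { carrier := {a | a ∈ derivedSeries G k ∧ a ^ p = 1}
      mul_mem' := by
        rintro a b ⟨ha, ha'⟩ ⟨hb, hb'⟩
        refine ⟨Subgroup.mul_mem _ ha hb, ?_⟩
        have hc : Commute a b := hAc a ha b hb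
        rw [hc.mul_pow, ha', hb', one_mul]
      one_mem' := ⟨Subgroup.one_mem _, one_pow p⟩
      inv_mem' := by
        rintro a ⟨ha, ha'⟩
        exact ⟨Subgroup.inv_mem _ ha, by rw [inv_pow, ha', inv_one]⟩ }
  have hNmem : ∀ a : G, a ∈ N ↔ a ∈ derivedSeries G k ∧ a ^ p = 1 := fun a => Iff.rfl
  refine ⟨p, hp, N, ?_, ?_, ?_, ?_⟩
  · constructor
    intro a ha g
    rw [hNmem] at ha ⊢
    exact ⟨hAn.conj_mem a ha.1 g, by rw [conj_pow, ha.2, mul_one, mul_inv_cancel]⟩
  · intro h
    have hx1 : (x : G) ∈ N := by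
      rw [hNmem]
      refine ⟨x.2, ?_⟩
      have := pow_orderOf_eq_one x
      rw [hx] at this
      simpa using congrArg Subtype.val this
    rw [h, Subgroup.mem_bot] at hx1
    have hx2 : x = 1 := Subtype.ext hx1
    rw [hx2, orderOf_one] at hx
    exact hp.one_lt.ne hx
  · intro a ha; exact ((hNmem a).mp ha).2
  · intro a ha b hb; exact hAc a ((hNmem a).mp ha).1 b ((hNmem b).mp hb).1


universe u

theorem eppo_solvable_aux : ∀ (n : ℕ) (G : Type u) [Group G] [Finite G] [Group.IsSolvable G],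
    Nat.card G = n → (∀ g : G, IsPrimePow (orderOf g) ∨ g = 1) →
    (Nat.card G).primeFactors.card ≤ 2 := by
  intro n
  induction n using Nat.strong_induction_on with
  | _ n ih =>
  intro G _ _ _ hn h
  by_cases htriv : Nat.card G = 1
  · rw [htriv]; simp
  have hnt : Nontrivial G := by
    rw [← Finite.one_lt_card_iff_nontrivial]; have := Nat.card_pos (α := G); omega
  obtain ⟨p, hp, N, hNn, hNbot, hNp, hNc⟩ := exists_normal_elab_of_solvable (G := G)
  have : Fact p.Prime := ⟨hp⟩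
  have hNpg : IsPGroup p N := fun g => ⟨1, by
    rw [pow_one]; exact Subtype.ext (by simpa using hNp g g.2)⟩
  obtain ⟨a, ha⟩ := IsPGroup.iff_card.mp hNpg
  have ha0 : a ≠ 0 := by
    rintro rfl
    rw [pow_zero] at ha
    exact hNbot (Subgroup.card_eq_one.mp ha)
  have hcard : Nat.card G = Nat.card (G ⧸ N) * Nat.card N :=
    Subgroup.card_eq_card_quotient_mul_card_subgroup N
  have hQpos : 0 < Nat.card (G ⧸ N) := Nat.card_pos
  have hNgt : 1 < Nat.card N := by rw [ha]; exact Nat.one_lt_pow ha0 hp.one_lt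
  have hlt : Nat.card (G ⧸ N) < n := by rw [← hn, hcard]; nlinarith
  have hQ : ∀ q : G ⧸ N, IsPrimePow (orderOf q) ∨ q = 1 := by
    intro q
    obtain ⟨g, rfl⟩ := QuotientGroup.mk_surjective q
    rcases h g with hg | hg
    · have hd : orderOf (QuotientGroup.mk g : G ⧸ N) ∣ orderOf g := by
        apply orderOf_dvd_of_pow_eq_one
        rw [← QuotientGroup.mk_pow, pow_orderOf_eq_one, QuotientGroup.mk_one]
      obtain ⟨p₁, k, hp₁, hk, hpk⟩ := hg
      rw [← hpk] at hd
      obtain ⟨j, hj, hj'⟩ := (Nat.dvd_prime_pow hp₁.nat_prime).mp hd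
      rcases Nat.eq_zero_or_pos j with h0 | h0
      · right; rw [h0, pow_zero] at hj'; exact orderOf_eq_one_iff.mp hj'
      · left; exact ⟨p₁, j, hp₁, h0, hj'.symm⟩
    · right; rw [hg]; rfl
  have ihQ := ih _ hlt (G ⧸ N) rfl hQ
  have hpf : (Nat.card G).primeFactors = (Nat.card (G ⧸ N)).primeFactors ∪ {p} := by
    rw [hcard, Nat.primeFactors_mul hQpos.ne' (by omega), ha, Nat.primeFactors_prime_pow ha0 hp]
  by_cases hpQ : p ∈ (Nat.card (G ⧸ N)).primeFactors
  · rw [hpf, Finset.union_eq_left.mpr (Finset.singleton_subset_iff.mpr hpQ)]; exact ihQ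
  by_cases hQ1 : (Nat.card (G ⧸ N)).primeFactors.card ≤ 1
  · rw [hpf]
    calc ((Nat.card (G ⧸ N)).primeFactors ∪ {p}).card
        ≤ (Nat.card (G ⧸ N)).primeFactors.card + ({p} : Finset ℕ).card := Finset.card_union_le _ _
      _ ≤ 2 := by rw [Finset.card_singleton]; omega
  exfalso
  have hQ2 : 1 < (Nat.card (G ⧸ N)).primeFactors.card := by omega
  have hpQ' : ¬ p ∣ Nat.card (G ⧸ N) :=
    fun hd => hpQ (Nat.mem_primeFactors.mpr ⟨hp, hd, hQpos.ne'⟩)
  have hcop : Nat.Coprime (Nat.card N) N.index := by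
    rw [ha, Subgroup.index_eq_card]
    exact Nat.Coprime.pow_left _ ((Nat.Prime.coprime_iff_not_dvd hp).mpr hpQ')
  obtain ⟨K, hK⟩ := Subgroup.exists_right_complement'_of_coprime hcop
  have hKcard : Nat.card K = Nat.card (G ⧸ N) := by
    rw [← Subgroup.index_eq_card, hK.symm.index_eq_card]
  have hcopNK : Nat.Coprime (Nat.card N) (Nat.card K) := by
    rw [hKcard, ← Subgroup.index_eq_card]; exact hcop
  have hKnt : Nontrivial K := by
    rw [← Finite.one_lt_card_iff_nontrivial, hKcard]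
    by_contra hle
    have h1 : Nat.card (G ⧸ N) = 1 := by omega
    rw [h1] at hQ2
    simp at hQ2
  obtain ⟨q, hq, B, hBn, hBbot, hBq, hBc⟩ := exists_normal_elab_of_solvable (G := K)
  have : Fact q.Prime := ⟨hq⟩
  obtain ⟨r, hr, hrq⟩ := Finset.exists_mem_ne hQ2 q
  have hr' := Nat.mem_primeFactors.mp hr
  have : Fact r.Prime := ⟨hr'.1⟩
  obtain ⟨y, hy⟩ := exists_prime_orderOf_dvd_card' (G := K) r (by rw [hKcard]; exact hr'.2.1)
  -- fixed-point-freeness
  have hfpf : ∀ k ∈ K, k ≠ 1 → ∀ v ∈ N, k * v * k⁻¹ = v → v = 1 := by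
    intro k hk hk1 v hv hkv
    by_contra hv1
    have hc : Commute k v := by
      have : k * v = v * k := by
        calc k * v = (k * v * k⁻¹) * k := by group
          _ = v * k := by rw [hkv]
      exact this
    have hov : orderOf v ∣ Nat.card N := by
      have := orderOf_dvd_natCard (⟨v, hv⟩ : N)
      rwa [← Subgroup.orderOf_coe] at this
    have hok : orderOf k ∣ Nat.card K := by
      have := orderOf_dvd_natCard (⟨k, hk⟩ : K)
      rwa [← Subgroup.orderOf_coe] at this
    have hco : (orderOf k).Coprime (orderOf v) :=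
      Nat.Coprime.of_dvd hok hov hcopNK.symm
    have hmul := hc.orderOf_mul_eq_mul_orderOf_of_coprime hco
    have hk1' : orderOf k ≠ 1 := fun h => hk1 (orderOf_eq_one_iff.mp h)
    have hv1' : orderOf v ≠ 1 := fun h => hv1 (orderOf_eq_one_iff.mp h)
    have hkpos : 0 < orderOf k := orderOf_pos k
    have hvpos : 0 < orderOf v := orderOf_pos v
    rcases h (k * v) with hpp | h1
    · rw [hmul] at hpp
      rcases (Nat.Coprime.isPrimePow_dvd_mul hco hpp).mp dvd_rfl with hd | hd
      · have := Nat.le_of_dvd hkpos hd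
        have : orderOf v ≤ 1 := by nlinarith
        omega
      · have := Nat.le_of_dvd hvpos hd
        have : orderOf k ≤ 1 := by nlinarith
        omega
    · rw [h1, orderOf_one] at hmul
      have := Nat.eq_one_of_mul_eq_one_right hmul.symm
      exact hk1' this
  -- M
  have hMK : B.map K.subtype ≤ K := Subgroup.map_subtype_le B
  have hMq : ∀ m ∈ B.map K.subtype, m ^ q = 1 := by
    rintro m ⟨b, hb, rfl⟩
    have := hBq b hb
    simpa using congrArg Subtype.val this
  have hyG : (y : G) ^ r = 1 := by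
    have := pow_orderOf_eq_one y
    rw [hy] at this
    simpa using congrArg Subtype.val this
  have hyGo : orderOf (y : G) = r := by rw [Subgroup.orderOf_coe]; exact hy
  have hnorm : ∀ m ∈ B.map K.subtype, (y : G) * m * (y : G)⁻¹ ∈ B.map K.subtype := by
    rintro m ⟨b, hb, rfl⟩
    exact ⟨y * b * y⁻¹, hBn.conj_mem b hb y, by simp⟩
  have hd := pow_mul_inv_mem_of_norm (B.map K.subtype) (y : G) hnorm
  have hqr : ¬ r ∣ q := fun hdv => hrq ((Nat.prime_dvd_prime_iff_eq hr'.1 hq).mp hdv)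
  have hyM : ∀ i : ℕ, (y : G) ^ (q ^ i) ∉ B.map K.subtype := by
    intro i hmem
    have h1 := hMq _ hmem
    rw [← pow_mul, ← pow_succ] at h1
    have h2 := orderOf_dvd_of_pow_eq_one h1
    rw [hyGo] at h2
    exact hqr (hr'.1.dvd_of_dvd_pow h2)
  have hmy1 : ∀ m ∈ B.map K.subtype, m * (y : G) ≠ 1 := by
    intro m hm h1
    apply hyM 0
    have : (y : G) = m⁻¹ := by
      calc (y : G) = m⁻¹ * (m * y) := by group
        _ = m⁻¹ := by rw [h1, mul_one]
    rw [pow_zero, pow_one, this]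
    exact Subgroup.inv_mem _ hm
  have hyr : ∀ m ∈ B.map K.subtype, (m * (y : G)) ^ r = 1 := by
    intro m hm
    by_contra hw1
    have hw : (m * (y : G)) ^ r ∈ B.map K.subtype := by
      have := hd r m hm
      rw [hyG, inv_one, mul_one] at this
      exact this
    have hwq := hMq _ hw
    have how : orderOf ((m * (y : G)) ^ r) = q := orderOf_eq_prime hwq hw1
    have hdv : q ∣ orderOf (m * (y : G)) := by
      rw [← how]; exact orderOf_pow_dvd r
    rcases h (m * (y : G)) with hpp | h1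
    · obtain ⟨p₁, k, hp₁, hk, hpk⟩ := hpp
      rw [← hpk] at hdv
      have hqp : q = p₁ :=
        (Nat.prime_dvd_prime_iff_eq hq hp₁.nat_prime).mp (hq.dvd_of_dvd_pow hdv)
      have hz : (m * (y : G)) ^ (q ^ k) = 1 := by
        rw [hqp, hpk]; exact pow_orderOf_eq_one _
      have := hd (q ^ k) m hm
      rw [hz, one_mul] at this
      exact hyM k (by simpa using Subgroup.inv_mem _ this)
    · exact hmy1 m hm h1
  -- apply the trace lemma
  let _ : CommGroup N :=
    { (inferInstance : Group N) with mul_comm := fun a b => Subtype.ext (hNc a a.2 b b.2) }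
  have key := frob_trace (MulAut.conjNormal : G →* MulAut N) (B.map K.subtype) (y : G) r hr'.1
    (by
      obtain ⟨b, hb1⟩ := (Subgroup.ne_bot_iff_exists_ne_one).mp hBbot
      exact ⟨(b : K), ⟨(b : K), b.2, rfl⟩, fun h => hb1 (Subtype.ext (Subtype.ext h))⟩)
    (by
      intro m hm hm1 v hv
      have := congrArg Subtype.val hv
      rw [MulAut.conjNormal_apply] at this
      exact Subtype.ext (hfpf m (hMK hm) hm1 v v.2 this))
    (by
      intro m hm v hv
      have := congrArg Subtype.val hv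
      rw [MulAut.conjNormal_apply] at this
      exact Subtype.ext (hfpf _ (K.mul_mem (hMK hm) y.2) (hmy1 m hm) v v.2 this))
    hyr hnorm
  obtain ⟨v, hv1⟩ := (Subgroup.ne_bot_iff_exists_ne_one).mp hNbot
  apply hv1
  have h1 : orderOf v ∣ Nat.card (B.map K.subtype) := orderOf_dvd_of_pow_eq_one (key v)
  have h2 : orderOf v ∣ Nat.card N := orderOf_dvd_natCard v
  have h3 : Nat.card (B.map K.subtype) ∣ Nat.card K := Subgroup.card_dvd_of_le hMK
  have h4 : orderOf v ∣ 1 := by
    have := Nat.dvd_gcd h2 (h1.trans h3)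
    rwa [Nat.Coprime.gcd_eq_one hcopNK] at this
  exact orderOf_eq_one_iff.mp (Nat.dvd_one.mp h4)

end Cfsg.Agent.Lib.Helper59
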