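import Mathlib

set_option autoImplicit false

namespace Cfsg.Agent.Lib.Helper59

/-- no element of "order 6": commuting `v` (involution) and `x` (order 3) -/
theorem no_order_six {G : Type*} [Group G] (hpow : ∀ g : G, g ^ 2 = 1 ∨ g ^ 3 = 1)
    (v x : G) (hvx : v * x = x * v) (hv : v * v = 1) (hv1 : v ≠ 1) (hx : x ^ 3 = 1) (hx1 : x ≠ 1) :
    False := by
  have hc : Commute v x := hvx
  rcases hpow (v * x) with h | h
  · rw [hc.mul_pow, pow_two v, hv, one_mul] at h
    apply hx1
    calc x = x ^ 3 * (x ^ 2)⁻¹ := by group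
      _ = 1 := by rw [hx, h]; simp
  · rw [hc.mul_pow, hx, mul_one, pow_succ, pow_two, hv, one_mul] at h
    exact hv1 h

theorem braid_of_cube {G : Type*} [Group G] (s t : G) (hs : s * s = 1) (ht : t * t = 1)
    (h : (s * t) ^ 3 = 1) : s * (t * s) = t * (s * t) := by
  have h1 : s * t * (s * t) * (s * t) = 1 := by rw [← h, pow_succ, pow_two]
  have hsi : s⁻¹ = s := inv_eq_of_mul_eq_one_left hs
  have hti : t⁻¹ = t := inv_eq_of_mul_eq_one_left ht
  calc s * (t * s) = (s * t * (s * t) * (s * t)) * t⁻¹ * s⁻¹ * t⁻¹ := by group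
    _ = t * (s * t) := by rw [h1, hsi, hti]; group

/-- the involution trick: in a group with all element orders in `{1,2,3}`, an involution `s`
commuting with another involution `u ∉ {1, s}` commutes with every involution. -/
theorem invol_trick {G : Type*} [Group G] (hpow : ∀ g : G, g ^ 2 = 1 ∨ g ^ 3 = 1)
    (s t u : G) (hs : s * s = 1) (ht : t * t = 1) (hu : u * u = 1) (hus : u * s = s * u)
    (hu1 : u ≠ 1) (hus' : u ≠ s) : s * t = t * s := by
  by_contra hst
  have comm_of_sq : ∀ a b : G, a * a = 1 → b * b = 1 → (a * b) ^ 2 = 1 → a * b = b * a := by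
    intro a b ha hb hab
    have h1 : a * b * (a * b) = 1 := by rw [← hab, pow_two]
    have hai : a⁻¹ = a := inv_eq_of_mul_eq_one_left ha
    have hbi : b⁻¹ = b := inv_eq_of_mul_eq_one_left hb
    calc a * b = (a * b * (a * b)) * b⁻¹ * a⁻¹ := by group
      _ = b * a := by rw [h1, hbi, hai]; group
  have hst3 : (s * t) ^ 3 = 1 := by
    rcases hpow (s * t) with h | h
    · exact absurd (comm_of_sq s t hs ht h) hst
    · exact h
  have hx1 : s * t ≠ 1 := by
    intro h
    have : s = t := by
      calc s = s * t * t⁻¹ := by group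
        _ = t⁻¹ := by rw [h, one_mul]
        _ = t := inv_eq_of_mul_eq_one_left ht
    apply hst; rw [this]
  -- u t has order 3
  have hut3 : (u * t) ^ 3 = 1 := by
    rcases hpow (u * t) with h | h
    · exfalso
      have hc := comm_of_sq u t hu ht h
      refine no_order_six hpow u (s * t) ?_ hu hu1 hst3 hx1
      rw [← mul_assoc, hus, mul_assoc, hc, mul_assoc]
    · exact h
  have hw : (u * s) * (u * s) = 1 := by
    calc (u * s) * (u * s) = u * (s * u) * s := by group
      _ = u * (u * s) * s := by rw [hus]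
      _ = (u * u) * (s * s) := by group
      _ = 1 := by rw [hu, hs, one_mul]
  have hw1 : u * s ≠ 1 := by
    intro h
    apply hus'
    calc u = u * s * s⁻¹ := by group
      _ = s⁻¹ := by rw [h, one_mul]
      _ = s := inv_eq_of_mul_eq_one_left hs
  have hws : (u * s) * s = s * (u * s) := by
    rw [← mul_assoc, hus]
  have hwt3 : ((u * s) * t) ^ 3 = 1 := by
    rcases hpow ((u * s) * t) with h | h
    · exfalso
      have hc := comm_of_sq (u * s) t hw ht h
      refine no_order_six hpow (u * s) (s * t) ?_ hw hw1 hst3 hx1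
      rw [← mul_assoc, hws, mul_assoc, hc, mul_assoc]
    · exact h
  have b1 := braid_of_cube s t hs ht hst3
  have b2 := braid_of_cube u t hu ht hut3
  have b3 := braid_of_cube (u * s) t hw ht hwt3
  have ss : ∀ z, s * (s * z) = z := fun z => by rw [← mul_assoc, hs, one_mul]
  have tt : ∀ z, t * (t * z) = z := fun z => by rw [← mul_assoc, ht, one_mul]
  have uu : ∀ z, u * (u * z) = z := fun z => by rw [← mul_assoc, hu, one_mul]
  have c' : ∀ z, u * (s * z) = s * (u * z) := fun z => by rw [← mul_assoc, hus, mul_assoc]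
  have b1' : ∀ z, s * (t * (s * z)) = t * (s * (t * z)) := fun z => by
    rw [← mul_assoc t, ← mul_assoc s, b1]; simp only [mul_assoc]
  -- Step A
  have eA : t * (u * (s * t)) = u * (t * (s * (u * (t * s)))) := by
    calc t * (u * (s * t)) = (t * (u * t)) * (t * (s * t)) := by
          simp only [mul_assoc, tt]
      _ = (u * (t * u)) * (s * (t * s)) := by rw [b1, b2]
      _ = u * (t * (s * (u * (t * s)))) := by simp only [mul_assoc, c']
  -- Step B
  have b3' : u * (s * (t * (u * s))) = t * (u * (s * t)) := by simpa only [mul_assoc] using b3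
  have eB1 : u * (s * (t * (u * s))) = u * (t * (s * (u * (t * s)))) := b3'.trans eA
  have eB2 : s * (t * (u * s)) = t * (s * (u * (t * s))) := mul_left_cancel eB1
  have eB3 : s * (t * u) = t * (s * (u * t)) := by
    apply mul_right_cancel (b := s)
    simpa only [mul_assoc] using eB2
  -- Step C
  have eC1 : t * (s * (t * u)) = s * (u * t) := by
    rw [eB3, tt]
  have eC2 : s * (t * (s * u)) = s * (u * t) := by
    rw [← eC1, b1']
  have eC3 : t * (s * u) = u * t := mul_left_cancel eC2
  have eC4 : t * (u * s) = u * t := by rw [hus]; exact eC3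
  -- Step D
  have eD1 : u * s = t * (u * t) := by
    rw [← eC4, tt]
  have eD2 : u * s = u * (t * u) := by rw [eD1, b2]
  have eD3 : s = t * u := mul_left_cancel eD2
  have ht' : t = s * u := by rw [eD3, mul_assoc, hu, mul_one]
  apply hst
  rw [ht', ss, mul_assoc, hus, ss]


theorem fpf_three_abs {T : Type*} [CommGroup T] (h2 : ∀ v : T, v * v = 1) (α β : T →* T)
    (ha : ∀ v, v * α v * α (α v) = 1) (hb : ∀ v, v * β v * β (β v) = 1)
    (hab : ∀ v, v * α (β v) * α (β (α (β v))) = 1) (hcomm : ∀ v, α (β v) = β (α v)) (v : T) :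
    α v = β v := by
  have ha' : ∀ w, α (α w) = w * α w := by
    intro w
    calc α (α w) = (w * α w)⁻¹ := (inv_eq_of_mul_eq_one_right (ha w)).symm
      _ = w * α w := inv_eq_of_mul_eq_one_left (h2 _)
  have hb' : ∀ w, β (β w) = w * β w := by
    intro w
    calc β (β w) = (w * β w)⁻¹ := (inv_eq_of_mul_eq_one_right (hb w)).symm
      _ = w * β w := inv_eq_of_mul_eq_one_left (h2 _)
  have e1 : α (β (α (β v))) = v * β v * α v * α (β v) := by
    rw [← hcomm (β v), ha', hb', map_mul, mul_assoc (v * β v)]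
  have e2 := hab v
  rw [e1] at e2
  have e3 : β v * α v = 1 := by
    calc β v * α v = (v * v) * (α (β v) * α (β v)) * (β v * α v) := by rw [h2, h2]; simp
      _ = v * α (β v) * (v * β v * α v * α (β v)) := by ac_rfl
      _ = 1 := e2
  calc α v = (β v)⁻¹ := (inv_eq_of_mul_eq_one_right e3).symm
    _ = β v := inv_eq_of_mul_eq_one_left (h2 _)

theorem no_big_three_quotient {G : Type*} [Group G] (hpow : ∀ g : G, g ^ 2 = 1 ∨ g ^ 3 = 1)
    (T : Subgroup G) [T.Normal] (hT : ∀ g : G, g ∈ T ↔ g * g = 1)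
    (hcomm : ∀ v w : G, v ∈ T → w ∈ T → v * w = w * v)
    (a b : G) (ha : a ∉ T) (hb : b ∉ T) (hab : a * b ∉ T) (hba : b⁻¹ * a ∉ T)
    (hc : (b * a)⁻¹ * (a * b) ∈ T) : ∀ v ∈ T, v = 1 := by
  have hx3 : ∀ x : G, x ∉ T → x ^ 3 = 1 := by
    intro x hx
    rcases hpow x with h | h
    · exact absurd ((hT x).mpr (by rw [← pow_two]; exact h)) hx
    · exact h
  have R : ∀ x : G, x ∉ T → ∀ v ∈ T,
      v * (x * v * x⁻¹) * (x * (x * v * x⁻¹) * x⁻¹) = 1 := by
    intro x hx v hv
    have h1 : v * x ∉ T := by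
      intro h
      apply hx
      have : x = v⁻¹ * (v * x) := by group
      rw [this]
      exact T.mul_mem (T.inv_mem hv) h
    have h2 := hx3 _ h1
    have h3 := hx3 x hx
    have h2' : v * x * (v * x) * (v * x) = 1 := by rw [← h2, pow_succ, pow_two]
    have h3' : x * x * x = 1 := by rw [← h3, pow_succ, pow_two]
    calc v * (x * v * x⁻¹) * (x * (x * v * x⁻¹) * x⁻¹)
        = (v * x * (v * x) * (v * x)) * (x * x * x)⁻¹ := by group
      _ = 1 := by rw [h2', h3']; simp
  let _ : CommGroup T :=
    { (inferInstance : Group T) with mul_comm := fun a b => Subtype.ext (hcomm a b a.2 b.2) }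
  have h2 : ∀ v : T, v * v = 1 := fun v => Subtype.ext ((hT v).mp v.2)
  intro v hv
  have key := fpf_three_abs h2 (MulAut.conjNormal a : T ≃* T).toMonoidHom
    (MulAut.conjNormal b : T ≃* T).toMonoidHom
    (fun v => Subtype.ext (R a ha v v.2)) (fun v => Subtype.ext (R b hb v v.2))
    (fun v => Subtype.ext (by
      have := R (a * b) hab v v.2
      show (v : G) * (a * (b * ↑v * b⁻¹) * a⁻¹) *
        (a * (b * (a * (b * ↑v * b⁻¹) * a⁻¹) * b⁻¹) * a⁻¹) = 1
      rw [← this]; group))
    (fun v => Subtype.ext (by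
      show a * (b * (v : G) * b⁻¹) * a⁻¹ = b * (a * ↑v * a⁻¹) * b⁻¹
      have h1 : ((b * a)⁻¹ * (a * b)) * (v : G) = v * ((b * a)⁻¹ * (a * b)) :=
        hcomm _ _ hc v.2
      calc a * (b * (v : G) * b⁻¹) * a⁻¹
          = (b * a) * (((b * a)⁻¹ * (a * b)) * (v : G)) * ((b * a)⁻¹ * (a * b))⁻¹ * (b * a)⁻¹ := by
            group
        _ = (b * a) * ((v : G) * ((b * a)⁻¹ * (a * b))) * ((b * a)⁻¹ * (a * b))⁻¹ * (b * a)⁻¹ := by
            rw [h1]
        _ = b * (a * ↑v * a⁻¹) * b⁻¹ := by group))
    ⟨v, hv⟩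
  have key' : a * v * a⁻¹ = b * v * b⁻¹ := congrArg Subtype.val key
  have hcv : (b⁻¹ * a) * v * (b⁻¹ * a)⁻¹ = v := by
    calc (b⁻¹ * a) * v * (b⁻¹ * a)⁻¹ = b⁻¹ * (a * v * a⁻¹) * b := by group
      _ = v := by rw [key']; group
  have h3 := R (b⁻¹ * a) hba v hv
  rw [hcv, hcv, (hT v).mp hv, one_mul] at h3
  exact h3


theorem orders_123_main {G : Type*} [Group G] [Finite G]
    (h : Set.range (orderOf : G → ℕ) = {k : ℕ | 1 ≤ k ∧ k ≤ 3}) :
    (∃ N : Subgroup G, N.Normal ∧ (IsMulCommutative N ∧ ∀ a ∈ N, a ^ 3 = 1) ∧ N.index = 2) ∨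
      (∃ N : Subgroup G, N.Normal ∧ (IsMulCommutative N ∧ ∀ a ∈ N, a ^ 2 = 1) ∧ N.index = 3) := by
  have hord : ∀ g : G, orderOf g = 1 ∨ orderOf g = 2 ∨ orderOf g = 3 := by
    intro g
    have : orderOf g ∈ {k : ℕ | 1 ≤ k ∧ k ≤ 3} := h ▸ Set.mem_range_self g
    obtain ⟨h1, h2⟩ := this
    omega
  have hpow : ∀ g : G, g ^ 2 = 1 ∨ g ^ 3 = 1 := by
    intro g
    rcases hord g with h1 | h1 | h1
    · left; rw [orderOf_eq_one_iff.mp h1, one_pow]
    · left; rw [← h1]; exact pow_orderOf_eq_one g
    · right; rw [← h1]; exact pow_orderOf_eq_one g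
  obtain ⟨s0, hs0⟩ : ∃ s : G, orderOf s = 2 := by
    have : (2:ℕ) ∈ Set.range (orderOf : G → ℕ) := by rw [h]; exact ⟨by norm_num, by norm_num⟩
    exact this
  obtain ⟨x0, hx0⟩ : ∃ x : G, orderOf x = 3 := by
    have : (3:ℕ) ∈ Set.range (orderOf : G → ℕ) := by rw [h]; exact ⟨by norm_num, by norm_num⟩
    exact this
  have hs0sq : s0 * s0 = 1 := by rw [← pow_two, ← hs0]; exact pow_orderOf_eq_one s0
  have hs01 : s0 ≠ 1 := by intro h; rw [h, orderOf_one] at hs0; omega
  by_cases hc : ∀ s t : G, s * s = 1 → t * t = 1 → s * t = t * s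
  · right
    let T : Subgroup G :=
      { carrier := {g | g * g = 1}
        mul_mem' := by
          intro a b ha hb
          have ha' : a * a = 1 := ha
          have hb' : b * b = 1 := hb
          show a * b * (a * b) = 1
          have := hc a b ha hb
          calc a * b * (a * b) = a * (b * a) * b := by group
            _ = a * (a * b) * b := by rw [this]
            _ = (a * a) * (b * b) := by group
            _ = 1 := by rw [ha', hb', one_mul]
        one_mem' := by show (1:G) * 1 = 1; simp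
        inv_mem' := by
          intro a ha
          have ha' : a * a = 1 := ha
          show a⁻¹ * a⁻¹ = 1
          rw [← mul_inv_rev, ha', inv_one] }
    have hT : ∀ g : G, g ∈ T ↔ g * g = 1 := fun g => Iff.rfl
    have hTn : T.Normal := ⟨by
      intro n hn g
      rw [hT] at hn ⊢
      calc g * n * g⁻¹ * (g * n * g⁻¹) = g * (n * n) * g⁻¹ := by group
        _ = 1 := by rw [hn]; group⟩
    have hcomm : ∀ v w : G, v ∈ T → w ∈ T → v * w = w * v := fun v w hv hw => hc v w hv hw
    refine ⟨T, hTn, ⟨⟨⟨fun a b => Subtype.ext (hcomm a b a.2 b.2)⟩⟩,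
      fun a ha => by rw [pow_two]; exact ha⟩, ?_⟩
    by_contra hne
    have hq3 : ∀ q : G ⧸ T, q ^ 3 = 1 := by
      intro q
      obtain ⟨g, rfl⟩ := QuotientGroup.mk_surjective q
      rcases hpow g with h1 | h1
      · have : g ∈ T := by rw [hT, ← pow_two]; exact h1
        rw [(QuotientGroup.eq_one_iff g).mpr this, one_pow]
      · rw [← QuotientGroup.mk_pow, h1, QuotientGroup.mk_one]
    have hx0T : x0 ∉ T := by
      intro hx
      rw [hT, ← pow_two] at hx
      have := orderOf_dvd_of_pow_eq_one hx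
      rw [hx0] at this; omega
    have : Nontrivial (G ⧸ T) :=
      ⟨⟨QuotientGroup.mk x0, 1, fun h => hx0T ((QuotientGroup.eq_one_iff x0).mp h)⟩⟩
    have hP : IsPGroup 3 (G ⧸ T) := fun q => ⟨1, by rw [pow_one]; exact hq3 q⟩
    have : Fact (Nat.Prime 3) := ⟨Nat.prime_three⟩
    have := hP.center_nontrivial
    obtain ⟨⟨abar, habar⟩, habar1⟩ := exists_ne (1 : Subgroup.center (G ⧸ T))
    have habar1' : abar ≠ 1 := fun h => habar1 (Subtype.ext h)
    have hoa : orderOf abar = 3 := orderOf_eq_prime (hq3 abar) habar1'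
    have hz : Subgroup.zpowers abar ≠ ⊤ := by
      intro hz
      apply hne
      rw [Subgroup.index_eq_card, ← Subgroup.card_top (G := G ⧸ T), ← hz, Nat.card_zpowers, hoa]
    obtain ⟨bbar, hbbar⟩ : ∃ bbar : G ⧸ T, bbar ∉ Subgroup.zpowers abar := by
      by_contra hall
      push Not at hall
      exact hz ((Subgroup.eq_top_iff' _).mpr hall)
    obtain ⟨a, rfl⟩ := QuotientGroup.mk_surjective abar
    obtain ⟨b, rfl⟩ := QuotientGroup.mk_surjective bbar
    have ha : a ∉ T := fun h => habar1' ((QuotientGroup.eq_one_iff a).mpr h)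
    have hb : b ∉ T := by
      intro h
      apply hbbar
      rw [(QuotientGroup.eq_one_iff b).mpr h]
      exact Subgroup.one_mem _
    have hab : a * b ∉ T := by
      intro h
      apply hbbar
      have : (QuotientGroup.mk b : G ⧸ T) = (QuotientGroup.mk a)⁻¹ := by
        have h1 : (QuotientGroup.mk a : G ⧸ T) * QuotientGroup.mk b = 1 := by
          rw [← QuotientGroup.mk_mul]; exact (QuotientGroup.eq_one_iff _).mpr h
        exact (inv_eq_of_mul_eq_one_right h1).symm
      rw [this]
      exact Subgroup.inv_mem _ (Subgroup.mem_zpowers _)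
    have hba : b⁻¹ * a ∉ T := by
      intro h
      apply hbbar
      have : (QuotientGroup.mk b : G ⧸ T) = QuotientGroup.mk a := QuotientGroup.eq.mpr h
      rw [this]
      exact Subgroup.mem_zpowers _
    have hcm : (b * a)⁻¹ * (a * b) ∈ T := by
      rw [← QuotientGroup.eq]
      rw [QuotientGroup.mk_mul, QuotientGroup.mk_mul]
      exact (Subgroup.mem_center_iff.mp habar (QuotientGroup.mk b))
    have := no_big_three_quotient hpow T hT hcomm a b ha hb hab hba hcm s0 ((hT s0).mpr hs0sq)
    exact hs01 this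
  · left
    push Not at hc
    obtain ⟨s, t, hs, ht, hst⟩ := hc
    have hs1 : s ≠ 1 := by rintro rfl; simp at hst
    have hCs : ∀ u : G, u * u = 1 → u * s = s * u → u = 1 ∨ u = s := by
      intro u hu hus
      by_contra hcon
      push Not at hcon
      exact hst (invol_trick hpow s t u hs ht hu hus hcon.1 hcon.2)
    have : Fact (Nat.Prime 2) := ⟨Nat.prime_two⟩
    have hzp : IsPGroup 2 (Subgroup.zpowers s) := by
      apply IsPGroup.of_card (n := 1)
      rw [Nat.card_zpowers, pow_one]
      exact orderOf_eq_prime (by rw [pow_two]; exact hs) hs1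
    obtain ⟨P, hP⟩ := hzp.exists_le_sylow
    have hsP : s ∈ P := hP (Subgroup.mem_zpowers s)
    have hPsq : ∀ g ∈ P, g * g = 1 := by
      intro g hg
      rcases hpow g with h1 | h1
      · rw [← pow_two]; exact h1
      · obtain ⟨k, hk⟩ := P.2 ⟨g, hg⟩
        have hk' : g ^ (2 ^ k) = 1 := by simpa using congrArg Subtype.val hk
        have hd1 := orderOf_dvd_of_pow_eq_one h1
        have hd2 := orderOf_dvd_of_pow_eq_one hk'
        have : orderOf g = 1 := by
          have hcop : Nat.Coprime 3 (2 ^ k) := by apply Nat.Coprime.pow_right; norm_num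
          exact Nat.eq_one_of_dvd_coprimes hcop hd1 hd2
        rw [orderOf_eq_one_iff.mp this, one_mul]
    have hPcomm : ∀ g ∈ P, ∀ k ∈ P, g * k = k * g := by
      intro g hg k hk
      have h1 := hPsq g hg
      have h2 := hPsq k hk
      have h3 := hPsq (g * k) (P.mul_mem hg hk)
      calc g * k = k⁻¹ * g⁻¹ * (g * k * (g * k)) := by group
        _ = k⁻¹ * g⁻¹ := by rw [h3, mul_one]
        _ = k * g := by rw [inv_eq_of_mul_eq_one_left h2, inv_eq_of_mul_eq_one_left h1]
    have hPelts : ∀ u ∈ P, u = 1 ∨ u = s := fun u hu => hCs u (hPsq u hu) (hPcomm u hu s hsP)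
    have hcardP : Nat.card P = 2 := by
      rw [Nat.card_eq_two_iff]
      refine ⟨⟨1, P.one_mem⟩, ⟨s, hsP⟩, ?_, ?_⟩
      · intro h; exact hs1 (congrArg Subtype.val h).symm
      · ext ⟨u, hu⟩
        simp only [Set.mem_insert_iff, Set.mem_singleton_iff, Set.mem_univ, iff_true]
        rcases hPelts u hu with h1 | h1
        · left; exact Subtype.ext h1
        · right; exact Subtype.ext h1
    have hcyc : IsCyclic P := isCyclic_of_prime_card hcardP
    have h2G : 2 ∣ Nat.card G := by
      rw [← hcardP]; exact Subgroup.card_subgroup_dvd_card _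
    have hmin : (Nat.card G).minFac = 2 := (Nat.minFac_eq_two_iff _).mpr h2G
    have hcompl := IsCyclic.isComplement' hmin hcyc
    have hodd : ¬ 2 ∣ Nat.card (MonoidHom.transferSylow P
        (hcyc.normalizer_le_centralizer hmin)).ker :=
      MonoidHom.not_dvd_card_ker_transferSylow P _
    generalize (MonoidHom.transferSylow P (hcyc.normalizer_le_centralizer hmin)) = f at hcompl hodd
    have hidx : f.ker.index = 2 := by rw [hcompl.symm.index_eq_card, hcardP]
    have hN3 : ∀ x ∈ f.ker, x ^ 3 = 1 := by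
      intro x hx
      rcases hpow x with h1 | h1
      · have hd1 : orderOf (⟨x, hx⟩ : f.ker) ∣ 2 :=
          orderOf_dvd_of_pow_eq_one (Subtype.ext (by simpa using h1))
        have hd2 : orderOf (⟨x, hx⟩ : f.ker) ∣ Nat.card f.ker := orderOf_dvd_natCard _
        have : orderOf (⟨x, hx⟩ : f.ker) = 1 := by
          rcases (Nat.dvd_prime Nat.prime_two).mp hd1 with h | h
          · exact h
          · rw [h] at hd2; exact absurd hd2 hodd
        have hx1 : x = 1 := congrArg Subtype.val (orderOf_eq_one_iff.mp this)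
        rw [hx1, one_pow]
      · exact h1
    have hsN : s ∉ f.ker := by
      intro hsN
      apply hodd
      have : orderOf (⟨s, hsN⟩ : f.ker) = 2 :=
        orderOf_eq_prime (Subtype.ext (by simpa [pow_two] using hs))
          (fun h => hs1 (congrArg Subtype.val h))
      have h3 := orderOf_dvd_natCard (⟨s, hsN⟩ : f.ker)
      rw [this] at h3; exact h3
    have hout : ∀ g : G, g ∉ f.ker → g * g = 1 := by
      intro g hg
      rcases hpow g with h1 | h1
      · rw [← pow_two]; exact h1
      · exfalso; apply hg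
        have h2 : g * g ∈ f.ker := Subgroup.mul_self_mem_of_index_two hidx g
        have : g = (g * g)⁻¹ := by
          symm; apply inv_eq_of_mul_eq_one_left; rw [← h1, pow_succ, pow_two, mul_assoc]
        rw [this]; exact f.ker.inv_mem h2
    have hinv : ∀ x ∈ f.ker, s * x * s = x⁻¹ := by
      intro x hx
      have h1 : s * x ∉ f.ker := by
        intro h; apply hsN
        have : s = (s * x) * x⁻¹ := by group
        rw [this]; exact f.ker.mul_mem h (f.ker.inv_mem hx)
      have h2 := hout _ h1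
      exact eq_inv_of_mul_eq_one_left (by rw [← h2]; group)
    refine ⟨f.ker, MonoidHom.normal_ker _, ⟨⟨⟨fun x y => Subtype.ext ?_⟩⟩, hN3⟩, hidx⟩
    have e1 := hinv x x.2
    have e2 := hinv y y.2
    have e3 := hinv (x * y) (f.ker.mul_mem x.2 y.2)
    have e4 : s * ((x : G) * y) * s = (s * x * s) * (s * y * s) := by
      calc s * ((x:G) * y) * s = s * x * 1 * y * s := by group
        _ = s * x * (s * s) * y * s := by rw [hs]
        _ = (s * x * s) * (s * y * s) := by group
    rw [e1, e2, e3] at e4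
    show (x : G) * y = y * x
    have := congrArg (fun z => z⁻¹) e4
    simpa using this

end Cfsg.Agent.Lib.Helper59
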