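import Mathlib

set_option autoImplicit false

namespace Cfsg.Agent.Lib.Helper59.SelfDual

open FiniteField

section layer1

variable {F E : Type*} [Field F] [Fintype F] [Field E] [Finite E] [Algebra F E]
  {H : Type*} [CommGroup H] [Finite H] (ι : H →* E)

theorem frob_pow_apply (k : ℕ) (x : E) :
    (frobeniusAlgHom F E ^ k) x = x ^ (Fintype.card F ^ k) := by
  rw [AlgHom.coe_pow, coe_frobeniusAlgHom, pow_iterate]

theorem frob_pow_eq_one_iff (hgen : Algebra.adjoin F (Set.range ι) = ⊤) (k : ℕ) :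
    (∀ h, ι h ^ (Fintype.card F ^ k) = ι h) ↔ Module.finrank F E ∣ k := by
  rw [← orderOf_frobeniusAlgHom F E, orderOf_dvd_iff_pow_eq_one]
  constructor
  · intro h
    apply AlgHom.ext_of_adjoin_eq_top hgen
    rintro _ ⟨x, rfl⟩
    rw [frob_pow_apply, h]; rfl
  · intro h x
    rw [← frob_pow_apply (F := F), h]; rfl

include ι in
theorem isCyclic_of_inj (hinj : Function.Injective ι) : IsCyclic H :=
  isCyclic_of_subgroup_isDomain ι hinj

theorem card_dvd_iff (hinj : Function.Injective ι) (m : ℕ) :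
    Nat.card H ∣ m ↔ ∀ h : H, h ^ m = 1 := by
  have := isCyclic_of_inj ι hinj
  rw [← IsCyclic.exponent_eq_card, Monoid.exponent_dvd_iff_forall_pow_eq_one]

theorem L1_R (hinj : Function.Injective ι) (hgen : Algebra.adjoin F (Set.range ι) = ⊤)
    (τ : E →ₐ[F] E) (hτ : ∀ h, τ (ι h) = ι h⁻¹) :
    (Module.finrank F E = 1 ∧ Nat.card H ≤ 2) ∨
      (Even (Module.finrank F E) ∧
        Nat.card H ∣ Fintype.card F ^ (Module.finrank F E / 2) + 1) := by
  obtain ⟨k, hk⟩ := (bijective_frobeniusAlgHom_pow F E).2 τ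
  have hk' : ∀ x, x ^ (Fintype.card F ^ k.1) = τ x := fun x => by
    rw [← frob_pow_apply (F := F)]; exact DFunLike.congr_fun hk x
  have h1 : ∀ h : H, h ^ (Fintype.card F ^ k.1 + 1) = 1 := by
    intro h
    apply hinj
    rw [map_pow, pow_succ, hk', hτ, ← map_mul, inv_mul_cancel]
  have hN : Nat.card H ∣ Fintype.card F ^ k.1 + 1 := (card_dvd_iff ι hinj _).2 h1
  have h2 : Module.finrank F E ∣ 2 * k.1 := by
    rw [← frob_pow_eq_one_iff ι hgen]
    intro h
    rw [two_mul, pow_add, pow_mul, hk', hk', hτ, hτ, inv_inv]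
  have hkn := k.2
  rcases Nat.eq_zero_or_pos k.1 with hk0 | hkpos
  · left
    rw [hk0, pow_zero] at hN
    have hN2 : Nat.card H ≤ 2 := Nat.le_of_dvd (by norm_num) hN
    refine ⟨?_, hN2⟩
    have h3 : Module.finrank F E ∣ 1 := by
      rw [← frob_pow_eq_one_iff ι hgen]
      intro h
      have h4 : ι h * ι h = 1 := by
        rw [← map_mul, ← map_one ι]
        congr 1
        have := (card_dvd_iff ι hinj 2).1 hN h
        rwa [pow_two] at this
      rw [← frob_pow_apply (F := F)]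
      have h5 : ι h = 1 ∨ ι h = -1 := mul_self_eq_one_iff.1 h4
      rcases h5 with h5 | h5
      · rw [h5, map_one]
      · rw [h5, map_neg, map_one]
    exact Nat.dvd_one.1 h3
  · right
    obtain ⟨c, hc⟩ := h2
    have hc1 : c = 1 := by
      have hpos : 0 < Module.finrank F E := by omega
      have h3 : Module.finrank F E * c < Module.finrank F E * 2 := by omega
      have h4 : c < 2 := lt_of_mul_lt_mul_left h3 (Nat.zero_le _)
      have h5 : c ≠ 0 := by
        rintro rfl
        omega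
      omega
    subst hc1
    have h6 : Module.finrank F E = 2 * k.1 := by omega
    refine ⟨⟨k.1, by omega⟩, ?_⟩
    have : Module.finrank F E / 2 = k.1 := by omega
    rw [this]; exact hN

theorem L1_C (hinj : Function.Injective ι)
    (hdvd : Nat.card H ∣ Fintype.card F ^ (Module.finrank F E / 2) + 1) :
    ∃ τ : E →ₐ[F] E, ∀ h, τ (ι h) = ι h⁻¹ := by
  refine ⟨frobeniusAlgHom F E ^ (Module.finrank F E / 2), fun h => ?_⟩
  rw [frob_pow_apply]
  have h1 : h ^ (Fintype.card F ^ (Module.finrank F E / 2) + 1) = 1 :=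
    (card_dvd_iff ι hinj _).1 hdvd h
  have h2 : ι h ^ (Fintype.card F ^ (Module.finrank F E / 2)) * ι h = 1 := by
    rw [← pow_succ, ← map_pow, h1, map_one]
  have h3 : ι h⁻¹ * ι h = 1 := by rw [← map_mul, inv_mul_cancel, map_one]
  have h4 : ι h ≠ 0 := fun h0 => by rw [h0, mul_zero] at h3; exact zero_ne_one h3
  exact mul_right_cancel₀ h4 (h2.trans h3.symm)

end layer1

section layer2

open MonoidAlgebra

variable {F : Type*} [Field F] {H : Type*} [CommGroup H] {V : Type*} [AddCommGroup V]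
  [Module F V] (ρ : Representation F H V)

theorem isSimple_asModule [Nontrivial V]
    (hirr : ∀ U : Submodule F V, (∀ h : H, ∀ u ∈ U, ρ h u ∈ U) → U = ⊥ ∨ U = ⊤) :
    IsSimpleModule (MonoidAlgebra F H) ρ.asModule := by
  have hnt : Nontrivial ρ.asModule := ρ.asModuleEquiv.toEquiv.nontrivial
  refine { exists_pair_ne := ⟨⊥, ⊤, bot_ne_top⟩, eq_bot_or_eq_top := fun W => ?_ }
  let U : Submodule F V := (W.restrictScalars F).map ρ.asModuleEquiv.toLinearMap
  have hU : ∀ h : H, ∀ u ∈ U, ρ h u ∈ U := by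
    rintro h _ ⟨w, hw, rfl⟩
    refine ⟨MonoidAlgebra.of F H h • w, W.smul_mem _ hw, ?_⟩
    show ρ.asModuleEquiv (MonoidAlgebra.of F H h • w) = ρ h (ρ.asModuleEquiv w)
    rw [Representation.asModuleEquiv_map_smul, Representation.asAlgebraHom_of]
  rcases hirr U hU with h | h
  · left
    rw [eq_bot_iff]
    intro w hw
    have : ρ.asModuleEquiv w ∈ U := ⟨w, hw, rfl⟩
    rw [h, Submodule.mem_bot] at this
    rw [Submodule.mem_bot]
    exact ρ.asModuleEquiv.injective (this.trans (map_zero _).symm)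
  · right
    rw [eq_top_iff]
    intro w _
    have : ρ.asModuleEquiv w ∈ U := h ▸ Submodule.mem_top
    obtain ⟨w', hw', hww'⟩ := this
    have : w' = w := ρ.asModuleEquiv.injective hww'
    exact this ▸ hw'

theorem exists_field_model [Finite F] [Finite H] [FiniteDimensional F V] [Nontrivial V]
    (hfaith : Function.Injective ρ)
    (hirr : ∀ U : Submodule F V, (∀ h : H, ∀ u ∈ U, ρ h u ∈ U) → U = ⊥ ∨ U = ⊤) :
    ∃ (E : Type (max u_1 u_2)) (_ : Field E) (_ : Algebra F E) (_ : Finite E) (ι : H →* E)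
      (ψ : V ≃ₗ[F] E), Function.Injective ι ∧ Algebra.adjoin F (Set.range ι) = ⊤ ∧
        ∀ h x, ψ (ρ h x) = ι h * ψ x := by
  have hs := isSimple_asModule ρ hirr
  obtain ⟨I, hI, ⟨e⟩⟩ := isSimpleModule_iff_quot_maximal.mp hs
  let _ : Field (MonoidAlgebra F H ⧸ I) := Ideal.Quotient.field I
  let ι : H →* (MonoidAlgebra F H ⧸ I) :=
    (Ideal.Quotient.mk I : MonoidAlgebra F H →* _).comp (MonoidAlgebra.of F H)
  let ψ : V ≃ₗ[F] (MonoidAlgebra F H ⧸ I) := ρ.asModuleEquiv.symm.trans (e.restrictScalars F)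
  have hψ : ∀ h x, ψ (ρ h x) = ι h * ψ x := by
    intro h x
    show e (ρ.asModuleEquiv.symm (ρ h x)) = _
    rw [Representation.asModuleEquiv_symm_map_rho, map_smul]
    obtain ⟨b, hb⟩ := Ideal.Quotient.mk_surjective (e (ρ.asModuleEquiv.symm x))
    show _ = ι h * e (ρ.asModuleEquiv.symm x)
    rw [← hb]
    rfl
  have hfin : Finite (MonoidAlgebra F H ⧸ I) := by
    have : Finite V := Module.finite_of_finite F
    exact Finite.of_equiv V ψ.toEquiv
  refine ⟨MonoidAlgebra F H ⧸ I, inferInstance, inferInstance, hfin, ι, ψ, ?_, ?_, hψ⟩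
  · intro h h' hh
    apply hfaith
    ext x
    apply ψ.injective
    rw [hψ, hψ, hh]
  · rw [eq_top_iff]
    intro z _
    obtain ⟨a, rfl⟩ := Ideal.Quotient.mk_surjective z
    clear * - a
    induction a using MonoidAlgebra.induction_on with
    | of h => exact Algebra.subset_adjoin ⟨h, rfl⟩
    | add a b ha hb => rw [map_add]; exact add_mem ha hb
    | smul c a ha =>
      have : Ideal.Quotient.mk I (c • a) = c • Ideal.Quotient.mk I a := rfl
      rw [this]; exact Subalgebra.smul_mem _ ha c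

end layer2

section main

open Polynomial

variable {F : Type*} [Field F] {H : Type*} [CommGroup H] {V : Type*} [AddCommGroup V]
  [Module F V] (ρ : Representation F H V)

theorem psi_pow {E : Type*} [Field E] [Algebra F E] (ι : H →* E) (ψ : V ≃ₗ[F] E)
    (hψ : ∀ h x, ψ (ρ h x) = ι h * ψ x) (h : H) (n : ℕ) (x : V) :
    ψ ((ρ h ^ n) x) = ι h ^ n * ψ x := by
  induction n with
  | zero => simp
  | succ n ih => rw [pow_succ', Module.End.mul_apply, hψ, ih, pow_succ']; ring

theorem psi_aeval {E : Type*} [Field E] [Algebra F E] (ι : H →* E) (ψ : V ≃ₗ[F] E)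
    (hψ : ∀ h x, ψ (ρ h x) = ι h * ψ x) (h : H) (f : F[X]) (x : V) :
    ψ (aeval (ρ h) f x) = aeval (ι h) f * ψ x := by
  induction f using Polynomial.induction_on' with
  | add f g hf hg => rw [map_add, LinearMap.add_apply, map_add, hf, hg, map_add, add_mul]
  | monomial n a =>
    rw [aeval_monomial, aeval_monomial, Module.End.mul_apply, Module.algebraMap_end_apply,
      map_smul, psi_pow ρ ι ψ hψ, Algebra.smul_def, mul_assoc]

theorem form_pow (B : LinearMap.BilinForm F V)
    (hinv : ∀ h : H, ∀ x y : V, B (ρ h x) (ρ h y) = B x y) (h : H) (n : ℕ) (x y : V) :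
    B ((ρ h⁻¹ ^ n) x) y = B x ((ρ h ^ n) y) := by
  rw [← map_pow, ← map_pow, ← hinv (h ^ n) ((ρ (h⁻¹ ^ n)) x) y]
  congr 2
  rw [← Module.End.mul_apply, ← map_mul, inv_pow, mul_inv_cancel, map_one]
  rfl

theorem form_aeval (B : LinearMap.BilinForm F V)
    (hinv : ∀ h : H, ∀ x y : V, B (ρ h x) (ρ h y) = B x y) (h : H) (f : F[X]) (x y : V) :
    B (aeval (ρ h⁻¹) f x) y = B x (aeval (ρ h) f y) := by
  induction f using Polynomial.induction_on' with
  | add f g hf hg =>
    rw [map_add, LinearMap.add_apply, map_add, LinearMap.add_apply, hf, hg, map_add,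
      LinearMap.add_apply, map_add]
  | monomial n a =>
    rw [aeval_monomial, aeval_monomial, Module.End.mul_apply, Module.End.mul_apply,
      Module.algebraMap_end_apply, Module.algebraMap_end_apply, map_smul, LinearMap.smul_apply,
      map_smul, form_pow ρ B hinv]

theorem forward_key [Fintype F] [Finite H] {E : Type*} [Field E] [Algebra F E] [Finite E]
    (ι : H →* E) (ψ : V ≃ₗ[F] E) (hinj : Function.Injective ι)
    (hgen : Algebra.adjoin F (Set.range ι) = ⊤) (hψ : ∀ h x, ψ (ρ h x) = ι h * ψ x)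
    (B : LinearMap.BilinForm F V) (hB : B.Nondegenerate)
    (hinv : ∀ h : H, ∀ x y : V, B (ρ h x) (ρ h y) = B x y) :
    (Module.finrank F E = 1 ∧ Nat.card H ≤ 2) ∨
      (Even (Module.finrank F E) ∧
        Nat.card H ∣ Fintype.card F ^ (Module.finrank F E / 2) + 1) := by
  have hstar : ∀ (h : H) (f : F[X]), aeval (ι h) f = 0 → aeval (ι h⁻¹) f = 0 := by
    intro h f hf
    have h1 : ∀ y, aeval (ρ h) f y = 0 := by
      intro y
      apply ψ.injective
      rw [psi_aeval ρ ι ψ hψ, hf, zero_mul, map_zero]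
    have h2 : ∀ x, aeval (ρ h⁻¹) f x = 0 := by
      intro x
      apply hB.1
      intro y
      rw [form_aeval ρ B hinv, h1, map_zero]
    have h3 := psi_aeval ρ ι ψ hψ h⁻¹ f (ψ.symm 1)
    rw [h2, map_zero, LinearEquiv.apply_symm_apply, mul_one] at h3
    exact h3.symm
  have hcyc : IsCyclic H := isCyclic_of_inj ι hinj
  obtain ⟨h0, hgen0⟩ := hcyc.exists_generator
  have hinvmap : ∀ h : H, ι h⁻¹ = (ι h)⁻¹ := by
    intro h
    have h3 : ι h⁻¹ * ι h = 1 := by rw [← map_mul, inv_mul_cancel, map_one]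
    exact eq_inv_of_mul_eq_one_left h3
  have halg : IsAlgebraic F (ι h0) := Algebra.IsAlgebraic.isAlgebraic _
  obtain ⟨σ, hσ⟩ := minpoly.exists_algEquiv_of_root halg (hstar h0 _ (minpoly.aeval F (ι h0)))
  have hσ0 : σ (ι h0) = ι h0⁻¹ := by
    have : ι h0 = (ι h0⁻¹)⁻¹ := by rw [hinvmap, inv_inv]
    rw [this, map_inv₀, hσ]
    exact (hinvmap h0).symm
  refine L1_R ι hinj hgen (σ : E →ₐ[F] E) (fun h => ?_)
  obtain ⟨j, rfl⟩ : ∃ j : ℕ, h0 ^ j = h := by
    have := hgen0 h
    rw [← mem_powers_iff_mem_zpowers] at this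
    exact this
  show σ (ι (h0 ^ j)) = _
  rw [map_pow, map_pow, hσ0, ← map_pow, inv_pow]

theorem main [Fintype F] [Finite H] [FiniteDimensional F V] (hfaith : Function.Injective ρ)
    (hirr : ∀ U : Submodule F V, (∀ h : H, ∀ u ∈ U, ρ h u ∈ U) → U = ⊥ ∨ U = ⊤) :
    (Module.finrank F V = 1 → (∃ B : LinearMap.BilinForm F V, B.Nondegenerate ∧
        ∀ h : H, ∀ x y : V, B (ρ h x) (ρ h y) = B x y) → Nat.card H ≤ 2) ∧
    (2 ≤ Module.finrank F V → ((∃ B : LinearMap.BilinForm F V, B.Nondegenerate ∧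
        ∀ h : H, ∀ x y : V, B (ρ h x) (ρ h y) = B x y) ↔
      (Even (Module.finrank F V) ∧
        Nat.card H ∣ Fintype.card F ^ (Module.finrank F V / 2) + 1))) := by
  by_cases hn : Module.finrank F V = 0
  · exact ⟨fun h => by omega, fun h => by omega⟩
  have hnt : Nontrivial V := Module.nontrivial_of_finrank_pos (R := F) (Nat.pos_of_ne_zero hn)
  obtain ⟨E, fE, aE, finE, ι, ψ, hinj, hgen, hψ⟩ := exists_field_model ρ hfaith hirr
  have hfr : Module.finrank F V = Module.finrank F E := ψ.finrank_eq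
  have key : (∃ B : LinearMap.BilinForm F V, B.Nondegenerate ∧
        ∀ h : H, ∀ x y : V, B (ρ h x) (ρ h y) = B x y) →
      (Module.finrank F E = 1 ∧ Nat.card H ≤ 2) ∨
      (Even (Module.finrank F E) ∧
        Nat.card H ∣ Fintype.card F ^ (Module.finrank F E / 2) + 1) := by
    rintro ⟨B, hB, hinv⟩
    exact forward_key ρ ι ψ hinj hgen hψ B hB hinv
  refine ⟨fun h1 hB => ?_, fun h2 => ⟨fun hB => ?_, ?_⟩⟩
  · rcases key hB with ⟨-, h⟩ | ⟨he, -⟩
    · exact h
    · rw [← hfr, h1] at he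
      exact absurd he (by decide)
  · rcases key hB with ⟨h, -⟩ | h
    · omega
    · rw [hfr]; exact h
  · rintro ⟨-, hd⟩
    rw [hfr] at hd
    obtain ⟨τ, hτ⟩ := L1_C ι hinj hd
    have hτbij : Function.Bijective τ := Algebra.IsAlgebraic.algHom_bijective τ
    have hinvmap : ∀ h : H, ι h * ι h⁻¹ = 1 := by
      intro h
      rw [← map_mul, mul_inv_cancel, map_one]
    refine ⟨(Algebra.traceForm F E).compl₁₂ (ψ : V →ₗ[F] E) (τ.toLinearMap.comp (ψ : V →ₗ[F] E)),
      ⟨?_, ?_⟩, ?_⟩
    · intro x hx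
      have h3 : ∀ z : E, Algebra.traceForm F E (ψ x) z = 0 := by
        intro z
        obtain ⟨w, rfl⟩ := hτbij.2 z
        have := hx (ψ.symm w)
        simpa using this
      have h4 := (traceForm_nondegenerate F E).1 (ψ x) h3
      exact ψ.map_eq_zero_iff.1 h4
    · intro y hy
      have h3 : ∀ z : E, Algebra.traceForm F E z (τ (ψ y)) = 0 := by
        intro z
        have := hy (ψ.symm z)
        simpa using this
      have h4 := (traceForm_nondegenerate F E).2 (τ (ψ y)) h3
      have h5 : ψ y = 0 := by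
        apply hτbij.1
        rw [h4, map_zero]
      exact ψ.map_eq_zero_iff.1 h5
    · intro h x y
      simp only [LinearMap.compl₁₂_apply, LinearEquiv.coe_coe, LinearMap.coe_comp,
        Function.comp_apply, AlgHom.toLinearMap_apply, Algebra.traceForm_apply, hψ, map_mul, hτ]
      congr 1
      calc ι h * ψ x * (ι h⁻¹ * τ (ψ y)) = (ι h * ι h⁻¹) * (ψ x * τ (ψ y)) := by ring
        _ = ψ x * τ (ψ y) := by rw [hinvmap, one_mul]

end main


end Cfsg.Agent.Lib.Helper59.SelfDual
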