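import Mathlib
import Cfsg.Prelude.Def_KGroupFacts
import Cfsg.Agent.Lib.Helper59.SzMultB
import Cfsg.Agent.Lib.Helper35.Schur
import Cfsg.Agent.Lib.Helper35.SL2Dicyclic
import Cfsg.Agent.Lib.Helper35.SchurRes
import Cfsg.Agent.Lib.Helper37.SzTori6
import Cfsg.Agent.Lib.Helper37.SzTori3
import Cfsg.Agent.Lib.Helper37.SzLieC
import Cfsg.Agent.Lib.Helper37.SzRel
import Cfsg.Agent.Lib.Helper37.SzSylow
import Cfsg.Agent.Lib.Helper37.SzCount

/-!
# The Schur multiplier of the Suzuki groups `Sz(q)`, `q ≥ 32`, is trivial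
-/

set_option autoImplicit false

namespace Cfsg.Agent.Lib.Helper59

open scoped commutatorElement
open Cfsg.Agent.Lib.Helper37 Cfsg.Agent.Lib.Helper35

section Arith

theorem sz_index_of_card {G : Type*} [Group G] (K : Subgroup G) (k i : ℕ) (hk : 0 < k)
    (hK : Nat.card K = k) (hG : Nat.card G = k * i) : K.index = i := by
  have h1 := Subgroup.card_mul_index K
  rw [hK, hG] at h1
  exact Nat.eq_of_mul_eq_mul_left hk h1

theorem not_dvd_of_coprime {p x y : ℕ} (hp : p.Prime) (hxy : Nat.Coprime x y) (hx : p ∣ x)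
    (hy : p ∣ y) : False := by
  have h := Nat.dvd_gcd hx hy
  rw [hxy] at h
  exact hp.one_lt.ne' (Nat.dvd_one.mp h)

/-- the arithmetic core: `Q, a, b, c` pairwise coprime -/
theorem sz_arith_core (Q a b c k n : ℕ) (hab : a * b = Q * Q + 1) (hc : c + 1 = Q)
    (hQ : 2 ∣ Q) (hdiff : a = b + 2 ^ k)
    (hA : n ∣ Q ^ 2 * (a * b)) (hB : n ∣ Q ^ 2 * b * c) (hC : n ∣ Q ^ 2 * a * c)
    (hD : n ∣ a * b * c * c) : n = 1 := by
  by_contra hn
  obtain ⟨p, hp, hpn⟩ := Nat.exists_prime_and_dvd hn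
  have hodd : ¬ 2 ∣ a * b := by
    rw [hab]
    intro h
    have : 2 ∣ Q * Q := Dvd.dvd.mul_right hQ Q
    omega
  have ha2 : Nat.Coprime a 2 := by
    rw [Nat.coprime_comm, Nat.Prime.coprime_iff_not_dvd Nat.prime_two]
    exact fun h => hodd (Dvd.dvd.mul_right h b)
  have hb2 : Nat.Coprime b 2 := by
    rw [Nat.coprime_comm, Nat.Prime.coprime_iff_not_dvd Nat.prime_two]
    exact fun h => hodd (Dvd.dvd.mul_left h a)
  have cQc : Nat.Coprime Q c := by
    rw [← hc]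
    simp
  have cQa : Nat.Coprime Q a := by
    apply Nat.Coprime.of_dvd_right (Dvd.intro b rfl : a ∣ a * b)
    rw [hab]
    simp
  have cQb : Nat.Coprime Q b := by
    apply Nat.Coprime.of_dvd_right (Dvd.intro_left a rfl : b ∣ a * b)
    rw [hab]
    simp
  have hcq : c * (Q + 1) + 2 = a * b := by
    rw [hab, ← hc]
    ring
  have cac : Nat.Coprime a c := by
    have h1 : Nat.gcd a c ∣ a * b := Dvd.dvd.mul_right (Nat.gcd_dvd_left a c) b
    have h2 : Nat.gcd a c ∣ c * (Q + 1) := Dvd.dvd.mul_right (Nat.gcd_dvd_right a c) _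
    have h3 : Nat.gcd a c ∣ 2 := by
      rw [← hcq] at h1
      exact (Nat.dvd_add_right h2).mp h1
    have h4 : Nat.gcd a c ∣ Nat.gcd a 2 := Nat.dvd_gcd (Nat.gcd_dvd_left a c) h3
    rw [ha2] at h4
    exact Nat.dvd_one.mp h4
  have cbc : Nat.Coprime b c := by
    have h1 : Nat.gcd b c ∣ a * b := Dvd.dvd.mul_left (Nat.gcd_dvd_left b c) a
    have h2 : Nat.gcd b c ∣ c * (Q + 1) := Dvd.dvd.mul_right (Nat.gcd_dvd_right b c) _
    have h3 : Nat.gcd b c ∣ 2 := by
      rw [← hcq] at h1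
      exact (Nat.dvd_add_right h2).mp h1
    have h4 : Nat.gcd b c ∣ Nat.gcd b 2 := Nat.dvd_gcd (Nat.gcd_dvd_left b c) h3
    rw [hb2] at h4
    exact Nat.dvd_one.mp h4
  have cab : Nat.Coprime a b := by
    have h1 : Nat.gcd a b ∣ 2 ^ k := by
      have h : Nat.gcd a b ∣ b + 2 ^ k := by
        conv_rhs => rw [← hdiff]
        exact Nat.gcd_dvd_left a b
      exact (Nat.dvd_add_right (Nat.gcd_dvd_right a b)).mp h
    have h4 : Nat.gcd a b ∣ Nat.gcd a (2 ^ k) := Nat.dvd_gcd (Nat.gcd_dvd_left a b) h1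
    rw [Nat.Coprime.pow_right k ha2] at h4
    exact Nat.dvd_one.mp h4
  have hpQ : ∀ x, Nat.Coprime Q x → p ∣ x → ¬ p ∣ Q ^ 2 := fun x hx hpx hpQ =>
    not_dvd_of_coprime hp hx (hp.dvd_of_dvd_pow hpQ) hpx
  have hD' := dvd_trans hpn hD
  rcases (Nat.Prime.dvd_mul hp).mp hD' with h | h
  · rcases (Nat.Prime.dvd_mul hp).mp h with h | h
    · rcases (Nat.Prime.dvd_mul hp).mp h with h | h
      · -- p ∣ a
        rcases (Nat.Prime.dvd_mul hp).mp (dvd_trans hpn hB) with h' | h'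
        · rcases (Nat.Prime.dvd_mul hp).mp h' with h' | h'
          · exact hpQ a cQa h h'
          · exact not_dvd_of_coprime hp cab h h'
        · exact not_dvd_of_coprime hp cac h h'
      · -- p ∣ b
        rcases (Nat.Prime.dvd_mul hp).mp (dvd_trans hpn hC) with h' | h'
        · rcases (Nat.Prime.dvd_mul hp).mp h' with h' | h'
          · exact hpQ b cQb h h'
          · exact not_dvd_of_coprime hp cab h' h
        · exact not_dvd_of_coprime hp cbc h h'
    · -- p ∣ c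
      rcases (Nat.Prime.dvd_mul hp).mp (dvd_trans hpn hA) with h' | h'
      · exact hpQ c cQc h h'
      · rcases (Nat.Prime.dvd_mul hp).mp h' with h' | h'
        · exact not_dvd_of_coprime hp cac h' h
        · exact not_dvd_of_coprime hp cbc h' h
  · rcases (Nat.Prime.dvd_mul hp).mp (dvd_trans hpn hA) with h' | h'
    · exact hpQ c cQc h h'
    · rcases (Nat.Prime.dvd_mul hp).mp h' with h' | h'
      · exact not_dvd_of_coprime hp cac h' h
      · exact not_dvd_of_coprime hp cbc h' h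

end Arith

section Main

variable {F : Type*} [Field F] [Fintype F] {m : ℕ}

theorem comm_of_map_mem_cyclic {Y G : Type*} [Group Y] [Group G] (τ : Y →* G)
    (hτ : Function.Surjective τ) (hc : τ.ker ≤ Subgroup.center Y) (K : Subgroup G)
    (hK : IsCyclic ↥K) (y₁ y₂ : Y) (h₁ : τ y₁ ∈ K) (h₂ : τ y₂ ∈ K) : y₁ * y₂ = y₂ * y₁ := by
  obtain ⟨g, hg⟩ := hK.exists_generator
  have key : ∀ y : Y, τ y ∈ K → τ y ∈ Subgroup.zpowers (g : G) := by
    intro y hy
    obtain ⟨n, hn⟩ := Subgroup.mem_zpowers_iff.mp (hg ⟨τ y, hy⟩)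
    refine Subgroup.mem_zpowers_iff.mpr ⟨n, ?_⟩
    have := congrArg Subtype.val hn
    simpa using this
  exact comm_of_map_mem_zpowers τ hτ hc (g : G) y₁ y₂ (key y₁ h₁) (key y₂ h₂)

/-- every finite stem extension of `Sz(q)`, `q ≥ 32`, is an isomorphism -/
theorem sz_stem_ker_eq_bot (hm : 2 ≤ m) (hF : Fintype.card F = 2 ^ (2 * m + 1))
    {Y : Type*} [Group Y] [Finite Y] (τ : Y →* ↥(Cfsg.Sz F m)) (hτ : IsStemExtension τ) :
    τ.ker = ⊥ := by
  classical
  have hm1 : 1 ≤ m := by omega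
  have h := szData_of_card hm1 hF
  rw [eq_bot_iff]
  intro z hzk
  rw [Subgroup.mem_bot]
  have hz : z ∈ Subgroup.center Y := hτ.2.1 hzk
  have hz' : z ∈ commutator Y := hτ.2.2 hzk
  have hzk' : τ z = 1 := hzk
  -- notation
  obtain ⟨Q, hQ⟩ : ∃ Q, Q = 2 ^ (2 * m + 1) := ⟨_, rfl⟩
  obtain ⟨R, hR⟩ : ∃ R, R = 2 ^ (m + 1) := ⟨_, rfl⟩
  have hRR : R * R = 2 * Q := by
    rw [hR, hQ, ← pow_add, ← pow_succ']
    congr 1
    omega
  have hR8 : 8 ≤ R := by
    rw [hR]
    calc 8 = 2 ^ 3 := by norm_num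
      _ ≤ 2 ^ (m + 1) := Nat.pow_le_pow_right (by norm_num) (by omega)
  have hRQ : 4 * R ≤ Q := by
    have : R * R = 2 * Q := hRR
    nlinarith
  have hQ2 : 2 ∣ Q := by
    rw [hQ]
    exact dvd_pow_self 2 (by omega)
  obtain ⟨c, hc⟩ : ∃ c, c + 1 = Q := ⟨Q - 1, by omega⟩
  obtain ⟨b, hb⟩ : ∃ b, b + R = Q + 1 := ⟨Q + 1 - R, by omega⟩
  obtain ⟨a, ha⟩ : ∃ a, a = Q + R + 1 := ⟨_, rfl⟩
  have hab : a * b = Q * Q + 1 := by
    have e1 : b = Q + 1 - R := by omega
    have e2 : (a : ℤ) * b = Q * Q + 1 := by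
      have hb' : (b : ℤ) = Q + 1 - R := by
        have := congrArg (Nat.cast : ℕ → ℤ) hb
        push_cast at this
        linarith
      have hRR' : (R : ℤ) * R = 2 * Q := by exact_mod_cast hRR
      rw [ha, hb']
      push_cast
      nlinarith
    exact_mod_cast e2
  have hdiff : a = b + 2 ^ (m + 2) := by
    have : 2 ^ (m + 2) = 2 * R := by rw [hR, pow_succ]; ring
    omega
  have hG : Nat.card ↥(Cfsg.Sz F m) = Q ^ 2 * (Q ^ 2 + 1) * c := by
    rw [card_sz hm1 hF, ← hQ]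
    congr 1
    omega
  have hQQ : Q ^ 2 + 1 = a * b := by rw [hab]; ring
  -- the three tori
  have hA : z ^ (Q ^ 2 * (a * b)) = 1 := by
    have hcard : Nat.card ↥(szHgrp (m := m) h) = c := by
      rw [card_szHgrp, hF, ← hQ]
      omega
    rw [← sz_index_of_card (szHgrp (m := m) h) c (Q ^ 2 * (a * b)) (by omega) hcard
      (by rw [hG, hQQ]; ring)]
    apply pow_index_eq_one_of_comm τ hτ.1 hz hz' hzk'
    intro y₁ y₂ h₁ h₂
    exact comm_of_map_mem_cyclic τ hτ.1 hτ.2.1 _ (szHgrp_isCyclic h) y₁ y₂ h₁ h₂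
  obtain ⟨x₁, x₂, hx₁, hx₂, hc₁, hc₂, -, -, -⟩ := sz_tori hm1 hF
  have hB : z ^ (Q ^ 2 * b * c) = 1 := by
    have hcard : Nat.card ↥(Subgroup.centralizer ({x₁} : Set ↥(Cfsg.Sz F m))) = a := by
      rw [hc₁, ha, hQ, hR]
    rw [← sz_index_of_card (Subgroup.centralizer ({x₁} : Set ↥(Cfsg.Sz F m))) a
      (Q ^ 2 * b * c) (by omega) hcard (by rw [hG, hQQ]; ring)]
    apply pow_index_eq_one_of_comm τ hτ.1 hz hz' hzk'
    intro y₁ y₂ h₁ h₂
    exact comm_of_map_mem_cyclic τ hτ.1 hτ.2.1 _ (szFpf_centralizer_cyclic hm1 hF x₁ hx₁)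
      y₁ y₂ h₁ h₂
  have hC : z ^ (Q ^ 2 * a * c) = 1 := by
    have hcard : Nat.card ↥(Subgroup.centralizer ({x₂} : Set ↥(Cfsg.Sz F m))) = b := by
      rw [hc₂, ← hQ, ← hR]
      omega
    rw [← sz_index_of_card (Subgroup.centralizer ({x₂} : Set ↥(Cfsg.Sz F m))) b
      (Q ^ 2 * a * c) (by omega) hcard (by rw [hG, hQQ]; ring)]
    apply pow_index_eq_one_of_comm τ hτ.1 hz hz' hzk'
    intro y₁ y₂ h₁ h₂
    exact comm_of_map_mem_cyclic τ hτ.1 hτ.2.1 _ (szFpf_centralizer_cyclic hm1 hF x₂ hx₂)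
      y₁ y₂ h₁ h₂
  -- the Sylow 2-subgroup
  have hD : z ^ (a * b * c * c) = 1 := by
    have hidx : ((szTsub (m := m) h).comap τ).index = a * b * c := by
      rw [Subgroup.index_comap_of_surjective _ hτ.1, szTsub_index hm1 hF, ← hQ, hQQ]
      congr 1
      omega
    obtain ⟨hmem, hcomm⟩ := pow_index_mem_commutator_of_central ((szTsub (m := m) h).comap τ)
      hz hz'
    have hw : z ^ (a * b * c) ∈ ⁅(szTsub (m := m) h).comap τ, (szTsub (m := m) h).comap τ⁆ := by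
      have h1 : ((szTsub (m := m) h).comap τ).subtype
          ⟨z ^ ((szTsub (m := m) h).comap τ).index, hmem⟩ ∈
          (commutator ↥((szTsub (m := m) h).comap τ)).map
            ((szTsub (m := m) h).comap τ).subtype := Subgroup.mem_map_of_mem _ hcomm
      rw [commutator_def, Subgroup.map_commutator, ← MonoidHom.range_eq_map,
        Subgroup.range_subtype] at h1
      have h2 : z ^ ((szTsub (m := m) h).comap τ).index ∈
          ⁅(szTsub (m := m) h).comap τ, (szTsub (m := m) h).comap τ⁆ := h1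
      rw [hidx] at h2
      exact h2
    have hF' : 2 * 2 ^ (m + 1) + 4 < Fintype.card F := by
      rw [hF, ← hQ, ← hR]
      omega
    have key := sz_comm_lift h hF' (szTm h) (szHsub h) (szTm_mul h) (szHsub_conj_szTm h)
      (szHsub_mul h) τ hτ.1 hτ.2.1 (szTsub h) (mem_szTsub h) (z ^ (a * b * c)) hw
      (by rw [map_pow, hzk', one_pow])
    rw [hF, ← hQ, ← pow_mul] at key
    have : Q - 1 = c := by omega
    rw [this] at key
    exact key
  have hn := sz_arith_core Q a b c (m + 2) (orderOf z) hab hc hQ2 hdiff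
    (orderOf_dvd_of_pow_eq_one hA) (orderOf_dvd_of_pow_eq_one hB)
    (orderOf_dvd_of_pow_eq_one hC) (orderOf_dvd_of_pow_eq_one hD)
  exact orderOf_eq_one_iff.mp hn

/-- The Schur multiplier of `Sz(q)`, `q = 2^(2m+1) ≥ 32`, is trivial. -/
theorem sz_schur_multiplier (hm : 2 ≤ m) (hF : Fintype.card F = 2 ^ (2 * m + 1)) :
    Cfsg.HasCyclicSchurMultiplier ↥(Cfsg.Lie.Sz F (2 ^ (m + 1))) 1 := by
  classical
  have hm1 : 1 ≤ m := by omega
  have h := szData_of_card hm1 hF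
  apply hasCyclicSchurMultiplier_one_of
  intro Y _ _ τ hτ
  let e := szLieEquiv (m := m) h
  have hτ' : IsStemExtension (e.symm.toMonoidHom.comp τ) := by
    have hker : (e.symm.toMonoidHom.comp τ).ker = τ.ker := by
      ext y
      simp [MonoidHom.mem_ker]
    refine ⟨e.symm.surjective.comp hτ.1, ?_, ?_⟩
    · rw [hker]; exact hτ.2.1
    · rw [hker]; exact hτ.2.2
  have hk := sz_stem_ker_eq_bot hm hF (e.symm.toMonoidHom.comp τ) hτ'
  have hker : (e.symm.toMonoidHom.comp τ).ker = τ.ker := by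
    ext y
    simp [MonoidHom.mem_ker]
  rw [← hker]
  exact hk

end Main

end Cfsg.Agent.Lib.Helper59
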